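import Cfsg.Agent.Lib.AltFusion.Core

/-!
# `p`-cycles in a `p`-group containing the base group; permutations permuting the blocks (helper20)
-/

set_option autoImplicit false
set_option linter.unusedSectionVars false

open Equiv Equiv.Perm

namespace Cfsg.Agent.Lib.AltFusion.Blocks

open Cfsg.Agent.Lib.AltFusion.Core

universe u v

/-- A `p`-element moving fewer than `p` points is trivial. -/
theorem pelt_small {X : Type*} [Fintype X] [DecidableEq X] {p : ℕ} [hp : Fact p.Prime] {w : Perm X} {k : ℕ}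
    (hw : w ^ p ^ k = 1) (hs : w.support.card < p) : w = 1 := by
  by_contra hne
  have h0 : w.cycleType ≠ 0 := fun h => hne (Equiv.Perm.cycleType_eq_zero.1 h)
  obtain ⟨n, hn⟩ := Multiset.exists_mem_of_ne_zero h0
  have h2 := Equiv.Perm.two_le_of_mem_cycleType hn
  have h3 := Equiv.Perm.dvd_of_mem_cycleType hn
  have h4 : orderOf w ∣ p ^ k := orderOf_dvd_of_pow_eq_one hw
  obtain ⟨j, -, rfl⟩ := (Nat.dvd_prime_pow hp.out).1 (h3.trans h4)
  have hj : j ≠ 0 := by
    rintro rfl
    simp at h2
  have h5 : p ≤ p ^ j := Nat.le_self_pow hj p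
  have h6 : p ^ j ≤ w.cycleType.sum := Multiset.single_le_sum (fun _ _ => Nat.zero_le _) _ hn
  rw [Equiv.Perm.sum_cycleType] at h6
  omega

theorem aux_support {X : Type*} [Fintype X] [DecidableEq X] {f : Perm X} {U : Finset X} (h : f.support ⊆ U) (y : X) :
    f y ∈ U ↔ y ∈ U := by
  by_cases hy : f y = y
  · rw [hy]
  · have h1 : y ∈ f.support := Equiv.Perm.mem_support.2 hy
    have h2 : f y ∈ f.support := Equiv.Perm.apply_mem_support.2 h1
    exact ⟨fun _ => h h1, fun _ => h h2⟩

/-- Two overlapping `p`-cycles in a `p`-group generate a group of order `p`. -/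
theorem overlap {X : Type*} [Fintype X] [DecidableEq X] {p : ℕ} [hp : Fact p.Prime] {K : Subgroup (Perm X)}
    (hK : IsPGroup p K) {c d : Perm X} (hc : c ∈ K) (hd : d ∈ K) (hcc : c.IsCycle) (hdc : d.IsCycle)
    (hcs : c.support.card = p) (hds : d.support.card = p) {x : X} (hxc : c x ≠ x) (hxd : d x ≠ x) :
    d ∈ Subgroup.zpowers c := by
  classical
  let K' := Subgroup.closure ({c, d} : Set (Perm X))
  have hK'K : K' ≤ K := by
    rw [Subgroup.closure_le]
    rintro _ (rfl | rfl)
    · exact hc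
    · exact hd
  have hK' : IsPGroup p K' := hK.to_le hK'K
  have hcK : c ∈ K' := Subgroup.subset_closure (Or.inl rfl)
  have hdK : d ∈ K' := Subgroup.subset_closure (Or.inr rfl)
  let U : Finset X := c.support ∪ d.support
  have hinv : ∀ g ∈ K', ∀ y, g y ∈ U ↔ y ∈ U := by
    intro g hg
    induction hg using Subgroup.closure_induction with
    | mem g hg =>
      rcases hg with rfl | rfl
      · exact aux_support Finset.subset_union_left
      · exact aux_support Finset.subset_union_right
    | one => intro y; rfl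
    | mul a b _ _ ha hb =>
      intro y
      rw [Perm.mul_apply, ha, hb]
    | inv a _ ha =>
      intro y
      rw [← ha (a⁻¹ y), pvi]
  have hxU : x ∈ U := Finset.mem_union_left _ (Equiv.Perm.mem_support.2 hxc)
  let O : Finset X := (MulAction.orbit K' x).toFinset
  have hOmem : ∀ y, y ∈ O ↔ ∃ g ∈ K', g x = y := by
    intro y
    simp only [O, Set.mem_toFinset, MulAction.mem_orbit_iff]
    constructor
    · rintro ⟨g, rfl⟩
      exact ⟨g, g.2, rfl⟩
    · rintro ⟨g, hg, rfl⟩
      exact ⟨⟨g, hg⟩, rfl⟩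
  have hOU : O ⊆ U := by
    intro y hy
    obtain ⟨g, hg, rfl⟩ := (hOmem y).1 hy
    exact (hinv g hg x).2 hxU
  have hcO : c.support ⊆ O := by
    intro y hy
    obtain ⟨i, hi⟩ := hcc.sameCycle hxc (Equiv.Perm.mem_support.1 hy)
    exact (hOmem y).2 ⟨c ^ i, K'.zpow_mem hcK i, hi⟩
  have hdO : d.support ⊆ O := by
    intro y hy
    obtain ⟨i, hi⟩ := hdc.sameCycle hxd (Equiv.Perm.mem_support.1 hy)
    exact (hOmem y).2 ⟨d ^ i, K'.zpow_mem hdK i, hi⟩
  have hp2 := hp.out.two_le
  have hUcard : U.card + 1 ≤ 2 * p := by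
    have h1 := Finset.card_union_add_card_inter c.support d.support
    have h2 : 1 ≤ (c.support ∩ d.support).card :=
      Finset.card_pos.2 ⟨x, Finset.mem_inter.2 ⟨Equiv.Perm.mem_support.2 hxc, Equiv.Perm.mem_support.2 hxd⟩⟩
    simp only [U]
    omega
  obtain ⟨n, hn⟩ := hK'.card_orbit x
  have hOcard : O.card = p ^ n := by
    rw [← hn, Set.toFinset_card, Nat.card_eq_fintype_card]
  have h1 : p ≤ O.card := by
    have := Finset.card_le_card hcO
    omega
  have h2 : O.card + 1 ≤ 2 * p := by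
    have := Finset.card_le_card hOU
    omega
  have hOp : O.card = p := by
    rw [hOcard] at h1 h2 ⊢
    have hn1 : n = 1 := by
      rcases n with _ | _ | n
      · simp at h1
        omega
      · rfl
      · exfalso
        have : p ^ 2 ≤ p ^ (n + 1 + 1) := Nat.pow_le_pow_right hp.out.pos (by omega)
        nlinarith
    rw [hn1, pow_one]
  have hcO' : c.support = O := Finset.eq_of_subset_of_card_le hcO (by omega)
  have hdO' : d.support = O := Finset.eq_of_subset_of_card_le hdO (by omega)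
  have hdx : d x ∈ c.support := by
    rw [hcO', ← hdO']
    exact Equiv.Perm.apply_mem_support.2 (Equiv.Perm.mem_support.2 hxd)
  obtain ⟨i, hi⟩ := hcc.sameCycle hxc (Equiv.Perm.mem_support.1 hdx)
  let w : Perm X := (c ^ i)⁻¹ * d
  have hwK : w ∈ K' := K'.mul_mem (K'.inv_mem (K'.zpow_mem hcK i)) hdK
  have hwx : w x = x := by
    show (c ^ i)⁻¹ (d x) = x
    rw [← hi, piv]
  obtain ⟨k, hk⟩ := hK' ⟨w, hwK⟩
  have hwk : w ^ p ^ k = 1 := congrArg Subtype.val hk
  have hwO : w.support ⊆ O.erase x := by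
    intro y hy
    have hy' := Equiv.Perm.mem_support.1 hy
    rw [Finset.mem_erase]
    refine ⟨fun e => hy' (e ▸ hwx), ?_⟩
    by_contra hyO
    apply hy'
    have h3 : d y = y := by
      by_contra h3
      exact hyO (hdO' ▸ Equiv.Perm.mem_support.2 h3)
    have h4 : c y = y := by
      by_contra h4
      exact hyO (hcO' ▸ Equiv.Perm.mem_support.2 h4)
    have h5 : (c ^ i) y = y := by
      have : Function.IsFixedPt c y := h4
      exact (Equiv.Perm.zpow_apply_eq_self_of_apply_eq_self h4 i)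
    show (c ^ i)⁻¹ (d y) = y
    rw [h3]
    conv_lhs => rw [← h5]
    exact piv _ _
  have hw1 : w = 1 := by
    apply pelt_small hwk
    have h3 := Finset.card_le_card hwO
    rw [Finset.card_erase_of_mem ((hOmem x).2 ⟨1, K'.one_mem, rfl⟩), hOp] at h3
    have := hp.out.pos
    omega
  have : d = c ^ i := by
    have h6 : (c ^ i)⁻¹ * d = 1 := hw1
    exact (inv_mul_eq_one.1 h6).symm
  rw [this]
  exact Subgroup.zpow_mem_zpowers c i

section blocks

variable {p : ℕ} [hp : Fact p.Prime] {I : Type u} {R : Type v} [Fintype I] [DecidableEq I] [Fintype R] [DecidableEq R]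

theorem zi_inl (j i : I) (e y : ZMod p) :
    (zi j e : Perm (Yy p I R)) (.inl (i, y)) = .inl (i, y + (Pi.single j e : I → ZMod p) i) := trans_inl _ _ _

theorem zi_self (j : I) (e y : ZMod p) : (zi j e : Perm (Yy p I R)) (.inl (j, y)) = .inl (j, y + e) := by
  rw [zi_inl, Pi.single_eq_same]

theorem zi_ne {j i : I} (h : i ≠ j) (e y : ZMod p) : (zi j e : Perm (Yy p I R)) (.inl (i, y)) = .inl (i, y) := by
  rw [zi_inl, Pi.single_eq_of_ne h, add_zero]

theorem zi_inr (j : I) (e : ZMod p) (r : R) : (zi j e : Perm (Yy p I R)) (.inr r) = .inr r := trans_inr _ _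

theorem zi_pow_p (j : I) (e : ZMod p) : (zi j e : Perm (Yy p I R)) ^ p = 1 := trans_pow_p _

theorem zi_ne_one (j : I) {e : ZMod p} (he : e ≠ 0) : (zi j e : Perm (Yy p I R)) ≠ 1 := by
  intro h
  have := congrArg (fun g : Perm (Yy p I R) => g (.inl (j, 0))) h
  simp only [zi_self, Perm.one_apply, Sum.inl.injEq, Prod.mk.injEq, true_and, zero_add] at this
  exact he this

theorem zi_moved {j : I} {e : ZMod p} {x : Yy p I R} (h : (zi j e : Perm (Yy p I R)) x ≠ x) :
    ∃ y, x = .inl (j, y) := by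
  rcases x with ⟨i, y⟩ | r
  · by_cases hi : i = j
    · subst hi
      exact ⟨y, rfl⟩
    · exact absurd (zi_ne hi e y) h
  · exact absurd (zi_inr j e r) h

theorem zi_isCycle (j : I) {e : ZMod p} (he : e ≠ 0) : (zi j e : Perm (Yy p I R)).IsCycle := by
  refine ⟨.inl (j, 0), ?_, ?_⟩
  · rw [zi_self]
    simpa using he
  · intro x hx
    obtain ⟨y, rfl⟩ := zi_moved hx
    refine ⟨((y / e).val : ℕ), ?_⟩
    rw [zpow_natCast]
    show ((tv (Pi.single j e) : Perm (Yy p I R)) ^ (y / e).val) _ = _
    rw [trans_pow, trans_inl]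
    simp only [Pi.smul_apply, Pi.single_eq_same, nsmul_eq_mul, ZMod.natCast_zmod_val, zero_add]
    rw [div_mul_cancel₀ _ he]

theorem zi_orderOf (j : I) {e : ZMod p} (he : e ≠ 0) : orderOf (zi j e : Perm (Yy p I R)) = p :=
  orderOf_eq_prime (zi_pow_p j e) (zi_ne_one j he)

theorem zi_card (j : I) {e : ZMod p} (he : e ≠ 0) : (zi j e : Perm (Yy p I R)).support.card = p := by
  rw [← (zi_isCycle j he).orderOf, zi_orderOf j he]

theorem zi_zpow (j : I) (e : ZMod p) (k : ℤ) : (zi j e : Perm (Yy p I R)) ^ k = zi j (k • e) := by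
  have h : ∀ n : ℕ, (zi j e : Perm (Yy p I R)) ^ n = zi j (n • e) := by
    intro n
    show (tv (Pi.single j e) : Perm (Yy p I R)) ^ n = tv (Pi.single j (n • e))
    rw [trans_pow]
    congr 1
    funext i
    by_cases hi : i = j
    · subst hi
      simp
    · simp [Pi.single_eq_of_ne hi]
  obtain ⟨n, rfl | rfl⟩ := k.eq_nat_or_neg
  · rw [zpow_natCast, h]
    simp
  · rw [zpow_neg, zpow_natCast, h, inv_eq_iff_mul_eq_one]
    show (tv _ * tv _ : Perm (Yy p I R)) = 1
    rw [trans_mul, ← trans_zero]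
    congr 1
    funext i
    by_cases hi : i = j
    · subst hi
      simp
    · simp [Pi.single_eq_of_ne hi]

theorem zi_mem_B0 (j : I) (e : ZMod p) : (zi j e : Perm (Yy p I R)) ∈ B0 p I R := ⟨_, rfl⟩

/-- The `p`-cycles of a `p`-group containing the base group are in the base group. -/
theorem cycle_mem (hR : Fintype.card R < p) {P : Subgroup (Perm (Yy p I R))} (hP : IsPGroup p P) (hB : B0 p I R ≤ P)
    {d : Perm (Yy p I R)} (hd : d ∈ P) (hc : d.IsCycle) (hs : d.support.card = p) :
    ∃ j e, e ≠ 0 ∧ d = zi j e := by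
  obtain ⟨x, hx⟩ : ∃ x : I × ZMod p, d (.inl x) ≠ .inl x := by
    by_contra hall
    push_neg at hall
    have h1 : d.support ⊆ Finset.univ.image (Sum.inr : R → Yy p I R) := by
      intro y hy
      rcases y with y | r
      · exact absurd (hall y) (Equiv.Perm.mem_support.1 hy)
      · exact Finset.mem_image_of_mem _ (Finset.mem_univ _)
    have h2 := Finset.card_le_card h1
    have h3 : (Finset.univ.image (Sum.inr : R → Yy p I R)).card ≤ Fintype.card R := Finset.card_image_le
    omega
  obtain ⟨j, y⟩ := x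
  have h1 : (1 : ZMod p) ≠ 0 := one_ne_zero
  have hm : (zi j 1 : Perm (Yy p I R)) (.inl (j, y)) ≠ .inl (j, y) := by
    rw [zi_self]
    simpa using h1
  have := overlap hP (hB (zi_mem_B0 j 1)) hd (zi_isCycle j h1) hc (zi_card j h1) hs hm hx
  obtain ⟨k, rfl⟩ := Subgroup.mem_zpowers_iff.1 this
  rw [zi_zpow] at hx ⊢
  refine ⟨j, k • 1, ?_, rfl⟩
  rintro h0
  rw [h0] at hx
  exact hx (by rw [zi_self, add_zero])

/-- A permutation conjugating each block translation to a block translation permutes the blocks affinely. -/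
theorem mem_AG_of_conj {g : Perm (Yy p I R)} (h : ∀ i, ∃ j e, e ≠ 0 ∧ g * zi i 1 * g⁻¹ = zi j e) : g ∈ AG p I R := by
  choose J e he hge using h
  have hcomm : ∀ i x, g (zi i 1 x) = zi (J i) (e i) (g x) := by
    intro i x
    have h1 := congrArg (fun f : Perm (Yy p I R) => f (g x)) (hge i)
    simp only [Perm.mul_apply, piv] at h1
    exact h1
  have hmoved : ∀ i y, ∃ b, g (.inl (i, y)) = .inl (J i, b) := by
    intro i y
    have hm : (zi (J i) (e i) : Perm (Yy p I R)) (g (.inl (i, y))) ≠ g (.inl (i, y)) := by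
      rw [← hcomm]
      intro h'
      have h2 := g.injective h'
      rw [zi_self] at h2
      simp only [Sum.inl.injEq, Prod.mk.injEq, true_and, add_eq_left] at h2
      exact one_ne_zero h2
    exact zi_moved hm
  choose b hb using fun i => hmoved i 0
  have hval : ∀ i (n : ℕ), g (.inl (i, (n : ZMod p))) = .inl (J i, n * e i + b i) := by
    intro i n
    induction n with
    | zero => simpa using hb i
    | succ n ih =>
      have h1 : (Sum.inl (i, ((n + 1 : ℕ) : ZMod p)) : Yy p I R) = zi i 1 (.inl (i, (n : ZMod p))) := by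
        rw [zi_self]
        simp
      rw [h1, hcomm, ih, zi_self]
      simp only [Nat.cast_add, Nat.cast_one, Sum.inl.injEq, Prod.mk.injEq, true_and]
      ring
  have hval' : ∀ i y, g (.inl (i, y)) = .inl (J i, y * e i + b i) := by
    intro i y
    have := hval i y.val
    rwa [ZMod.natCast_zmod_val] at this
  have hJinj : Function.Injective J := by
    intro i i' hii
    have h1 : g (.inl (i', 0)) = g (.inl (i, (b i' - b i) / e i)) := by
      rw [hval', hval', hii, div_mul_cancel₀ _ (he i)]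
      simp
    have h2 := g.injective h1
    simp only [Sum.inl.injEq, Prod.mk.injEq] at h2
    exact h2.1.symm
  have hJbij : Function.Bijective J := Finite.injective_iff_bijective.1 hJinj
  have hR : ∀ r, ∃ r', g (.inr r) = .inr r' := by
    intro r
    rcases hgr : g (.inr r) with ⟨j, y⟩ | r'
    · exfalso
      obtain ⟨i, rfl⟩ := hJbij.2 j
      have h1 : g (.inl (i, (y - b i) / e i)) = g (.inr r) := by
        rw [hgr, hval', div_mul_cancel₀ _ (he i)]
        simp
      have h2 := g.injective h1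
      simp at h2
    · exact ⟨r', rfl⟩
  choose ρ₀ hρ₀ using hR
  have hρinj : Function.Injective ρ₀ := by
    intro r r' hrr
    have h1 : g (.inr r) = g (.inr r') := by rw [hρ₀, hρ₀, hrr]
    have h2 := g.injective h1
    simpa using h2
  refine ⟨Equiv.ofBijective J hJbij, fun i => Units.mk0 (e i) (he i), b,
    Equiv.ofBijective ρ₀ (Finite.injective_iff_bijective.1 hρinj), ?_⟩
  ext x
  rcases x with ⟨i, y⟩ | r
  · rw [hval', aff_inl]
    simp [mul_comm]
  · rw [hρ₀, aff_inr]
    simp

/-- A `p`-group containing the base group consists of block permutations. -/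
theorem le_AG (hR : Fintype.card R < p) {P : Subgroup (Perm (Yy p I R))} (hP : IsPGroup p P) (hB : B0 p I R ≤ P) :
    P ≤ AG p I R := by
  intro g hg
  apply mem_AG_of_conj
  intro i
  have h1 : (1 : ZMod p) ≠ 0 := one_ne_zero
  refine cycle_mem hR hP hB (P.mul_mem (P.mul_mem hg (hB (zi_mem_B0 i 1))) (P.inv_mem hg)) ?_ ?_
  · exact (zi_isCycle i h1).conj
  · rw [Equiv.Perm.card_support_conj, zi_card i h1]

/-- Conjugation of a translation. -/
theorem conj_trans (σ : Perm I) (d : I → (ZMod p)ˣ) (a : I → ZMod p) (ρ : Perm R) (f : I → ZMod p) :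
    aff σ d a ρ * tv f * (aff σ d a ρ)⁻¹ = tv (fun j => (d (σ⁻¹ j) : ZMod p) * f (σ⁻¹ j)) := by
  rw [mul_inv_eq_iff_eq_mul]
  ext x
  rcases x with ⟨i, y⟩ | r
  · simp only [Perm.mul_apply, trans_inl, aff_inl, piv]
    simp only [Sum.inl.injEq, Prod.mk.injEq, true_and]
    ring
  · simp

theorem AG_conj_B0 {g x : Perm (Yy p I R)} (hg : g ∈ AG p I R) (hx : x ∈ B0 p I R) : g * x * g⁻¹ ∈ B0 p I R := by
  obtain ⟨σ, d, a, ρ, rfl⟩ := hg
  obtain ⟨f, rfl⟩ := hx
  rw [conj_trans]
  exact ⟨_, rfl⟩

/-- Powers of a block-fixing permutation. -/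
theorem aff_one_pow (d : I → (ZMod p)ˣ) (a : I → ZMod p) (ρ : Perm R) (n : ℕ) :
    ∃ a', (aff 1 d a ρ) ^ n = aff 1 (d ^ n) a' (ρ ^ n) := by
  induction n with
  | zero => exact ⟨0, by simp [aff_one]⟩
  | succ n ih =>
    obtain ⟨a', ha'⟩ := ih
    refine ⟨fun i => ((d ^ n) i : ZMod p) * a i + a' i, ?_⟩
    rw [pow_succ, ha', aff_mul, pow_succ, pow_succ]
    rfl

/-- A `p`-element fixing all blocks is a translation. -/
theorem pel (hR : Fintype.card R < p) {d : I → (ZMod p)ˣ} {a : I → ZMod p} {ρ : Perm R} {k : ℕ}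
    (h : (aff 1 d a ρ) ^ p ^ k = 1) : aff 1 d a ρ = tv a := by
  obtain ⟨a', ha'⟩ := aff_one_pow d a ρ (p ^ k)
  rw [ha', ← aff_one] at h
  obtain ⟨h1, -, h3⟩ := d_unique h
  have hd : d = 1 := by
    funext i
    have h4 : d i ^ p ^ k = 1 := congrFun h1 i
    have h5 : orderOf (d i) ∣ p ^ k := orderOf_dvd_of_pow_eq_one h4
    have h6 : orderOf (d i) ∣ p - 1 := by
      have := orderOf_dvd_card (x := d i)
      rwa [ZMod.card_units] at this
    have h7 : Nat.Coprime (p ^ k) (p - 1) := by
      apply Nat.Coprime.pow_left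
      have hp2 := hp.out.two_le
      exact Nat.coprime_of_lt_prime (by omega) (by omega) hp.out
    have h8 := Nat.eq_one_of_dvd_coprimes h7 h5 h6
    exact orderOf_eq_one_iff.1 h8
  have hρ : ρ = 1 := by
    apply pelt_small h3
    calc ρ.support.card ≤ Fintype.card R := Finset.card_le_univ _
      _ < p := hR
  subst hd hρ
  rfl

end blocks

end Cfsg.Agent.Lib.AltFusion.Blocks
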