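import Cfsg.Agent.Lib.AltFusion.Syl

/-!
# Subgroups closed under even conjugation in a Sylow subgroup (helper20)
-/

set_option autoImplicit false
set_option linter.unusedSectionVars false

open Equiv Equiv.Perm

namespace Cfsg.Agent.Lib.AltFusion.Closed

open Cfsg.Agent.Lib.AltFusion.Core Cfsg.Agent.Lib.AltFusion.Blocks Cfsg.Agent.Lib.AltFusion.Syl

section conj

variable {p : ℕ} [hp : Fact p.Prime] {X : Type} [Fintype X] [DecidableEq X]

theorem cycleType_rep {x : Perm X} (hx : x ^ p = 1) (hne : x ≠ 1) :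
    ∃ k, x.cycleType = Multiset.replicate (k + 1) p ∧ (k + 1) * p = x.support.card := by
  have h1 : orderOf x = p := orderOf_eq_prime hx hne
  obtain ⟨k, hk⟩ := cycleType_prime_order (σ := x) (h1.symm ▸ hp.out)
  rw [h1] at hk
  refine ⟨k, hk, ?_⟩
  have h3 := sum_cycleType x
  rw [hk, Multiset.sum_replicate, smul_eq_mul] at h3
  exact h3

theorem cycleType_eq_of {x x' : Perm X} (hx : x ^ p = 1) (hne : x ≠ 1) (hx' : x' ^ p = 1) (hne' : x' ≠ 1)
    (hs : x.support.card = x'.support.card) : x.cycleType = x'.cycleType := by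
  obtain ⟨k, hk, hk2⟩ := cycleType_rep hx hne
  obtain ⟨k', hk', hk2'⟩ := cycleType_rep hx' hne'
  have h : (k + 1) * p = (k' + 1) * p := by rw [hk2, hk2', hs]
  have h2 := Nat.eq_of_mul_eq_mul_right hp.out.pos h
  rw [hk, hk', h2]

theorem exists_odd_comm {x : Perm X} (hx : x ^ p = 1) (hne : x ≠ 1) (hc : p + 1 < Fintype.card X) :
    ∃ b, b * x = x * b ∧ sign b = -1 := by
  by_contra hall
  push_neg at hall
  have h1 : Subgroup.centralizer {x} ≤ alternatingGroup X := by
    intro b hb
    have hb' : x * b = b * x := (Subgroup.mem_centralizer_iff.1 hb) x (Set.mem_singleton x)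
    rw [Equiv.Perm.mem_alternatingGroup]
    rcases Int.units_eq_one_or (sign b) with h | h
    · exact h
    · exact absurd h (hall b hb'.symm)
  obtain ⟨-, h2, h3⟩ := centralizer_le_alternating_iff.1 h1
  obtain ⟨k, hk, hk2⟩ := cycleType_rep hx hne
  rw [sum_cycleType] at h2
  have h4 := h3 p
  rw [hk, Multiset.count_replicate_self] at h4
  have hk0 : k = 0 := by omega
  subst hk0
  rw [← hk2] at h2
  omega

theorem even_conj {x x' : Perm X} (hx : x ^ p = 1) (hne : x ≠ 1) (hx' : x' ^ p = 1) (hne' : x' ≠ 1)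
    (hs : x.support.card = x'.support.card) (hc : p + 1 < Fintype.card X) :
    ∃ g, sign g = 1 ∧ g * x * g⁻¹ = x' := by
  have h1 : IsConj x x' := isConj_iff_cycleType_eq.2 (cycleType_eq_of hx hne hx' hne' hs)
  obtain ⟨c, hc'⟩ := isConj_iff.1 h1
  rcases Int.units_eq_one_or (sign c) with h | h
  · exact ⟨c, h, hc'⟩
  · obtain ⟨b, hb, hbs⟩ := exists_odd_comm hx hne hc
    refine ⟨c * b, ?_, ?_⟩
    · rw [map_mul, h, hbs]
      rfl
    · have : c * b * x * (c * b)⁻¹ = c * (b * x * b⁻¹) * c⁻¹ := by group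
      rw [this, hb, mul_inv_cancel_right, hc']

end conj

section tvs

variable {p : ℕ} [hp : Fact p.Prime] {I R : Type} [Fintype I] [DecidableEq I] [Fintype R] [DecidableEq R]

theorem tv_ne_one {f : I → ZMod p} (hf : f ≠ 0) : (tv f : Perm (Yy p I R)) ≠ 1 := by
  intro h
  apply hf
  apply trans_inj (R := R)
  rw [h, trans_zero]

theorem tv_support_card (f : I → ZMod p) :
    (tv f : Perm (Yy p I R)).support.card = p * (Finset.univ.filter fun i => f i ≠ 0).card := by
  have h : (tv f : Perm (Yy p I R)).support =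
      ((Finset.univ.filter fun i => f i ≠ 0) ×ˢ (Finset.univ : Finset (ZMod p))).image Sum.inl := by
    ext x
    rcases x with ⟨i, y⟩ | r
    · simp [Equiv.Perm.mem_support, trans_inl]
    · simp [Equiv.Perm.mem_support, trans_inr]
  rw [h, Finset.card_image_of_injective _ Sum.inl_injective, Finset.card_product, Finset.card_univ, ZMod.card, mul_comm]

theorem tv_sum_mem (T : Subgroup (Perm (Yy p I R))) (h : ∀ j e, (zi j e : Perm (Yy p I R)) ∈ T) (f : I → ZMod p) :
    (tv f : Perm (Yy p I R)) ∈ T := by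
  let W : AddSubgroup (I → ZMod p) :=
    { carrier := {g | (tv g : Perm (Yy p I R)) ∈ T}
      add_mem' := fun {a b} ha hb => by
        show tv (a + b) ∈ T
        rw [← trans_mul]
        exact T.mul_mem ha hb
      zero_mem' := by
        show tv 0 ∈ T
        rw [trans_zero]
        exact T.one_mem
      neg_mem' := fun {a} ha => by
        show tv (-a) ∈ T
        rw [← trans_inv]
        exact T.inv_mem ha }
  have h1 : f = ∑ i, Pi.single i (f i) := (Finset.univ_sum_single f).symm
  have h2 : (∑ i, Pi.single i (f i) : I → ZMod p) ∈ W := AddSubgroup.sum_mem _ fun i _ => h i (f i)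
  rw [← h1] at h2
  exact h2

theorem sign_zi (j : I) {e : ZMod p} (he : e ≠ 0) : sign (zi j e : Perm (Yy p I R)) = - (-1) ^ p := by
  rw [(zi_isCycle j he).sign, zi_card j he]

end tvs

theorem zmod2_ne (x : ZMod 2) (h : x ≠ 0) : x = 1 := by
  revert x
  decide

theorem zmod2_cases (x : ZMod 2) : x = 0 ∨ x = 1 := by
  revert x
  decide

section main

variable {p : ℕ} [hp : Fact p.Prime] {I R : Type} [Fintype I] [DecidableEq I] [Fintype R] [DecidableEq R]

/-- The hypotheses on a subgroup closed under even conjugation. -/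
structure CH (P T : Subgroup (Perm (Yy p I R))) : Prop where
  hR : Fintype.card R < p
  hI : 3 ≤ Fintype.card I
  hc : p + 1 < Fintype.card (Yy p I R)
  hP : IsSyl p P
  hB : B0 p I R ≤ P
  hTP : T ≤ P
  hTs : ∀ x ∈ T, sign x = 1
  hne : T ≠ ⊥
  hcl : ∀ x ∈ T, ∀ g, sign g = 1 → g * x * g⁻¹ ∈ P → g * x * g⁻¹ ∈ T
  hQ : p = 2 → ∃ i₀ i₁ : I, i₀ ≠ i₁ ∧ (lift (swap i₀ i₁) : Perm (Yy p I R)) ∈ P

variable {P T : Subgroup (Perm (Yy p I R))}

theorem CH.same_type (H : CH P T) {x x' : Perm (Yy p I R)} (hxT : x ∈ T) (hx'P : x' ∈ P) (hx : x ^ p = 1) (hne : x ≠ 1)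
    (hx' : x' ^ p = 1) (hne' : x' ≠ 1) (hs : x.support.card = x'.support.card) : x' ∈ T := by
  obtain ⟨g, hg, he⟩ := even_conj hx hne hx' hne' hs H.hc
  have := H.hcl x hxT g hg (he.symm ▸ hx'P)
  rwa [he] at this

/-- `T` contains a non-trivial translation. -/
theorem CH.exists_tv (H : CH P T) : ∃ f : I → ZMod p, f ≠ 0 ∧ (tv f : Perm (Yy p I R)) ∈ T := by
  obtain ⟨x, hx, hne⟩ : ∃ x ∈ T, x ≠ 1 := by
    by_contra hall
    push_neg at hall
    exact H.hne ((Subgroup.eq_bot_iff_forall T).2 hall)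
  have hxP := H.hTP hx
  obtain ⟨σ, d, a, ρ, rfl⟩ := le_AG H.hR H.hP.pgroup H.hB hxP
  by_cases hσ : σ = 1
  · subst hσ
    obtain ⟨k, hk⟩ := H.hP.pgroup ⟨_, hxP⟩
    have hk' := pel H.hR (k := k) (congrArg Subtype.val hk)
    refine ⟨a, ?_, hk' ▸ hx⟩
    rintro rfl
    rw [hk', trans_zero] at hne
    exact hne rfl
  · obtain ⟨i, hi⟩ : ∃ i, σ i ≠ i := by
      by_contra hall
      push_neg at hall
      exact hσ (Equiv.ext hall)
    obtain ⟨k, hk1, hk2⟩ : ∃ k, k ≠ i ∧ k ≠ σ i := by
      have hc : 2 < Fintype.card I := by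
        have := H.hI
        omega
      have : ({i, σ i} : Finset I).card < Fintype.card I := lt_of_le_of_lt (Finset.card_le_two) hc
      obtain ⟨k, hk⟩ := Finset.exists_mem_notMem_of_card_lt_card (s := {i, σ i}) (t := Finset.univ) (by
        rwa [Finset.card_univ])
      simp only [Finset.mem_insert, Finset.mem_singleton, not_or] at hk
      exact ⟨k, hk.2.1, hk.2.2⟩
    let fv : I → ZMod p := Pi.single i 1 + Pi.single k 1
    let v : Perm (Yy p I R) := tv fv
    have hv : v = zi i 1 * zi k 1 := by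
      show tv _ = tv _ * tv _
      rw [trans_mul]
    have hvP : v ∈ P := H.hB ⟨_, rfl⟩
    have hvs : sign v = 1 := by
      rw [hv, map_mul, sign_zi _ one_ne_zero, sign_zi _ one_ne_zero]
      simp
    have h1 : v * (aff σ d a ρ)⁻¹ * v⁻¹ ∈ T := by
      apply H.hcl _ (T.inv_mem hx) v hvs
      exact P.mul_mem (P.mul_mem hvP (P.inv_mem hxP)) (P.inv_mem hvP)
    have h2 : aff σ d a ρ * v * (aff σ d a ρ)⁻¹ * v⁻¹ ∈ T := by
      have e : aff σ d a ρ * v * (aff σ d a ρ)⁻¹ * v⁻¹ = aff σ d a ρ * (v * (aff σ d a ρ)⁻¹ * v⁻¹) := by group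
      rw [e]
      exact T.mul_mem hx h1
    rw [Blocks.conj_trans] at h2
    have e2 : v⁻¹ = tv (-fv) := trans_inv fv
    rw [e2, trans_mul] at h2
    refine ⟨_, ?_, h2⟩
    intro h0
    have h3 := congrFun h0 (σ i)
    simp only [Pi.add_apply, Pi.neg_apply, piv, Pi.zero_apply, fv] at h3
    rw [Pi.single_eq_same, Pi.single_eq_of_ne hk1.symm] at h3
    rw [Pi.single_eq_of_ne hi, Pi.single_eq_of_ne hk2.symm] at h3
    simp at h3

/-- The translations lying in `T`. -/
def tvW (T : Subgroup (Perm (Yy p I R))) : AddSubgroup (I → ZMod p) where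
  carrier := {g | (tv g : Perm (Yy p I R)) ∈ T}
  add_mem' := fun {a b} ha hb => by
    show tv (a + b) ∈ T
    rw [← trans_mul]
    exact T.mul_mem ha hb
  zero_mem' := by
    show tv 0 ∈ T
    rw [trans_zero]
    exact T.one_mem
  neg_mem' := fun {a} ha => by
    show tv (-a) ∈ T
    rw [← trans_inv]
    exact T.inv_mem ha

theorem CH.all_zi_odd (H : CH P T) (hp2 : p ≠ 2) : ∀ j e, (zi j e : Perm (Yy p I R)) ∈ T := by
  obtain ⟨f, hf, hfT⟩ := H.exists_tv
  obtain ⟨i₀, hi₀⟩ : ∃ i, f i ≠ 0 := Function.ne_iff.1 hf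
  let f' : I → ZMod p := f + Pi.single i₀ (f i₀)
  have h2 : (2 : ZMod p) ≠ 0 := by
    intro h
    have h3 : ((2 : ℕ) : ZMod p) = 0 := by exact_mod_cast h
    rw [ZMod.natCast_eq_zero_iff] at h3
    exact hp2 ((Nat.prime_dvd_prime_iff_eq hp.out Nat.prime_two).1 h3)
  have hfilter : (Finset.univ.filter fun i => f' i ≠ 0) = Finset.univ.filter fun i => f i ≠ 0 := by
    ext i
    simp only [Finset.mem_filter, Finset.mem_univ, true_and, f', Pi.add_apply]
    by_cases hi : i = i₀
    · subst hi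
      rw [Pi.single_eq_same, ← two_mul]
      simp [h2]
    · rw [Pi.single_eq_of_ne hi, add_zero]
  have hf' : f' ≠ 0 := by
    intro h
    apply hi₀
    have : i₀ ∈ Finset.univ.filter fun i => f' i ≠ 0 := by
      rw [hfilter]
      simp [hi₀]
    simp [h] at this
  have hf'T : (tv f' : Perm (Yy p I R)) ∈ T :=
    H.same_type hfT (H.hB ⟨_, rfl⟩) (trans_pow_p f) (tv_ne_one hf) (trans_pow_p f') (tv_ne_one hf')
      (by rw [tv_support_card, tv_support_card, hfilter])
  have h3 : (zi i₀ (f i₀) : Perm (Yy p I R)) ∈ T := by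
    have := T.mul_mem (T.inv_mem hfT) hf'T
    rw [trans_inv, trans_mul] at this
    have e : -f + f' = Pi.single i₀ (f i₀) := by simp [f']
    rw [e] at this
    exact this
  intro j e
  by_cases he : e = 0
  · subst he
    have : (zi j 0 : Perm (Yy p I R)) = 1 := by
      show tv _ = 1
      rw [Pi.single_zero, trans_zero]
    rw [this]
    exact T.one_mem
  · exact H.same_type h3 (H.hB ⟨_, rfl⟩) (zi_pow_p _ _) (zi_ne_one _ hi₀) (zi_pow_p _ _) (zi_ne_one _ he)
      (by rw [zi_card _ hi₀, zi_card _ he])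

theorem tvlift_inl (h : I → ZMod p) (τ : Perm I) (i : I) (y : ZMod p) :
    (tv h * lift τ : Perm (Yy p I R)) (.inl (i, y)) = .inl (τ i, y + h (τ i)) := by
  rw [Perm.mul_apply, lift_inl, trans_inl]

theorem tvlift_inr (h : I → ZMod p) (τ : Perm I) (r : R) :
    (tv h * lift τ : Perm (Yy p I R)) (.inr r) = .inr r := by
  rw [Perm.mul_apply, lift_inr, trans_inr]

theorem tvlift_support {τ : Perm I} {h h' : I → ZMod p} (hh : ∀ i, (τ i ≠ i ∨ h (τ i) ≠ 0) ↔ h' i ≠ 0) :
    (tv h * lift τ : Perm (Yy p I R)).support = (tv h' : Perm (Yy p I R)).support := by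
  ext x
  rcases x with ⟨i, y⟩ | r
  · simp only [Equiv.Perm.mem_support, tvlift_inl, trans_inl, ne_eq, Sum.inl.injEq, Prod.mk.injEq, add_eq_left,
      true_and, not_and_or]
    exact hh i
  · simp [Equiv.Perm.mem_support, tvlift_inr, trans_inr]

theorem tvlift_sq {τ : Perm I} {h : I → ZMod 2} [Fact (Nat.Prime 2)] (hτ : ∀ i, τ (τ i) = i) (hh : ∀ i, h (τ i) = h i) :
    (tv h * lift τ : Perm (Yy 2 I R)) ^ 2 = 1 := by
  rw [pow_two]
  ext x
  rcases x with ⟨i, y⟩ | r
  · rw [Perm.mul_apply, tvlift_inl, tvlift_inl, hτ, hh, add_assoc, CharTwo.add_self_eq_zero, add_zero]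
    rfl
  · rw [Perm.mul_apply, tvlift_inr, tvlift_inr]
    rfl

theorem CH.pair_two (H : CH P T) (hp2 : p = 2) :
    ∃ i₀ i₁ : I, i₀ ≠ i₁ ∧ (tv (Pi.single i₀ 1 + Pi.single i₁ 1) : Perm (Yy p I R)) ∈ T := by
  subst hp2
  have hz : ∀ x : ZMod 2, x ≠ 0 → x = 1 := zmod2_ne
  have hz2 : ∀ x : ZMod 2, x = 0 ∨ x = 1 := zmod2_cases
  obtain ⟨f, hf, hfT⟩ := H.exists_tv
  obtain ⟨j, hj⟩ : ∃ i, f i ≠ 0 := Function.ne_iff.1 hf
  by_cases hall : ∃ i', f i' = 0
  · obtain ⟨i', hi'⟩ := hall
    have hne : i' ≠ j := by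
      rintro rfl
      exact hj hi'
    let τ : Perm I := swap i' j
    have hc : (lift τ : Perm (Yy 2 I R)) * tv f * (lift τ)⁻¹ = tv (fun k => f (τ⁻¹ k)) := by
      have := Blocks.conj_trans (p := 2) (R := R) τ 1 0 1 f
      simp only [Pi.one_apply, Units.val_one, one_mul] at this
      exact this
    have hne' : (fun k => f (τ⁻¹ k)) ≠ 0 := by
      intro h0
      apply hj
      have := congrFun h0 (τ j)
      simpa using this
    have hT' : (tv (fun k => f (τ⁻¹ k)) : Perm (Yy 2 I R)) ∈ T :=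
      H.same_type hfT (H.hB ⟨_, rfl⟩) (trans_pow_p f) (tv_ne_one hf) (trans_pow_p _) (tv_ne_one hne')
        (by rw [← hc, card_support_conj])
    have h1 := T.mul_mem hfT hT'
    rw [trans_mul] at h1
    refine ⟨i', j, hne, ?_⟩
    convert h1 using 2
    funext k
    have hτinv : τ⁻¹ = τ := swap_inv i' j
    simp only [Pi.add_apply, hτinv, τ]
    by_cases hk1 : k = i'
    · subst hk1
      rw [swap_apply_left, Pi.single_eq_same, Pi.single_eq_of_ne hne, hz _ hj, hi']
      simp
    · by_cases hk2 : k = j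
      · subst hk2
        rw [swap_apply_right, Pi.single_eq_of_ne hne.symm, Pi.single_eq_same, hz _ hj, hi']
        simp
      · rw [swap_apply_of_ne_of_ne hk1 hk2, Pi.single_eq_of_ne hk1, Pi.single_eq_of_ne hk2, CharTwo.add_self_eq_zero,
          CharTwo.add_self_eq_zero]
  · push_neg at hall
    have hf1 : ∀ i, f i = 1 := fun i => hz _ (hall i)
    obtain ⟨i₀, i₁, hne, hs⟩ := H.hQ rfl
    let τ : Perm I := swap i₀ i₁
    have hτ : ∀ i, τ (τ i) = i := fun i => swap_apply_self _ _ _
    let δ : I → ZMod 2 := Pi.single i₀ 1 + Pi.single i₁ 1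
    have hδ0 : δ i₀ = 1 := by simp [δ, Pi.single_eq_of_ne hne]
    have hδ1 : δ i₁ = 1 := by simp [δ, Pi.single_eq_of_ne hne.symm]
    have hδk : ∀ k, k ≠ i₀ → k ≠ i₁ → δ k = 0 := by
      intro k h1 h2
      simp [δ, Pi.single_eq_of_ne h1, Pi.single_eq_of_ne h2]
    have hτδ : ∀ i, δ (τ i) = δ i := by
      intro i
      by_cases h1 : i = i₀
      · subst h1
        simp only [τ, swap_apply_left, hδ0, hδ1]
      · by_cases h2 : i = i₁
        · subst h2
          simp only [τ, swap_apply_right, hδ0, hδ1]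
        · simp only [τ, swap_apply_of_ne_of_ne h1 h2]
    let g : I → ZMod 2 := f + δ
    have hτg : ∀ i, g (τ i) = g i := by
      intro i
      simp only [g, Pi.add_apply, hf1, hτδ]
    let u' : Perm (Yy 2 I R) := tv g * lift τ
    have hu'P : u' ∈ P := P.mul_mem (H.hB ⟨_, rfl⟩) hs
    have hτmoved : τ i₀ ≠ i₀ := by simpa [τ] using hne.symm
    have hu'ne : ∀ h : I → ZMod 2, (tv h * lift τ : Perm (Yy 2 I R)) ≠ 1 := by
      intro h h0
      have := congrArg (fun w : Perm (Yy 2 I R) => w (.inl (i₀, 0))) h0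
      simp only [tvlift_inl, Perm.one_apply, Sum.inl.injEq, Prod.mk.injEq] at this
      exact hτmoved this.1
    have hu'T : u' ∈ T := by
      refine H.same_type hfT hu'P (trans_pow_p f) (tv_ne_one hf) (tvlift_sq hτ hτg) (hu'ne _) ?_
      rw [tvlift_support (h' := f)]
      intro i
      constructor
      · intro _
        exact hall i
      · intro _
        by_cases h1 : i = i₀
        · subst h1
          exact Or.inl hτmoved
        · by_cases h2 : i = i₁
          · subst h2
            left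
            simp only [τ, swap_apply_right]
            exact hne
          · right
            simp only [τ, swap_apply_of_ne_of_ne h1 h2, g, Pi.add_apply, hf1, hδk i h1 h2]
            simp
    have hwT : (tv δ * lift τ : Perm (Yy 2 I R)) ∈ T := by
      have h1 := T.mul_mem hfT hu'T
      have e : (tv f * u' : Perm (Yy 2 I R)) = tv δ * lift τ := by
        show tv f * (tv g * lift τ) = _
        rw [← mul_assoc, trans_mul]
        congr 2
        funext k
        simp only [g, Pi.add_apply, ← add_assoc, CharTwo.add_self_eq_zero, zero_add]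
      rwa [e] at h1
    refine ⟨i₀, i₁, hne, ?_⟩
    have hδne : δ ≠ 0 := by
      intro h0
      have := congrFun h0 i₀
      rw [hδ0] at this
      simp at this
    refine H.same_type hwT (H.hB ⟨_, rfl⟩) (tvlift_sq hτ hτδ) (hu'ne _) (trans_pow_p _) (tv_ne_one hδne) ?_
    rw [tvlift_support (h' := δ)]
    intro i
    by_cases h1 : i = i₀
    · subst h1
      simp [hτmoved, hδ0]
    · by_cases h2 : i = i₁
      · subst h2
        simp [τ, swap_apply_right, hδ1, hne]
      · simp [τ, swap_apply_of_ne_of_ne h1 h2, hδk i h1 h2]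

theorem CH.all_two (H : CH P T) (hp2 : p = 2) : ∀ f : I → ZMod p, sign (tv f : Perm (Yy p I R)) = 1 →
    (tv f : Perm (Yy p I R)) ∈ T := by
  obtain ⟨i₀, i₁, hne, hpair⟩ := H.pair_two hp2
  subst hp2
  have hz2 : ∀ x : ZMod 2, x = 0 ∨ x = 1 := zmod2_cases
  have hcardp : ∀ i j : I, i ≠ j → (tv (Pi.single i 1 + Pi.single j 1) : Perm (Yy 2 I R)).support.card = 2 * 2 := by
    intro i j hij
    rw [tv_support_card]
    congr 1
    have : (Finset.univ.filter fun k => (Pi.single i 1 + Pi.single j 1 : I → ZMod 2) k ≠ 0) = {i, j} := by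
      ext k
      simp only [Finset.mem_filter, Finset.mem_univ, true_and, Finset.mem_insert, Finset.mem_singleton, Pi.add_apply]
      by_cases h1 : k = i
      · subst h1
        simp [Pi.single_eq_of_ne hij]
      · by_cases h2 : k = j
        · subst h2
          simp [Pi.single_eq_of_ne hij.symm]
        · simp [Pi.single_eq_of_ne h1, Pi.single_eq_of_ne h2, h1, h2]
    rw [this, Finset.card_pair hij]
  have hpne : ∀ i j : I, i ≠ j → (Pi.single i 1 + Pi.single j 1 : I → ZMod 2) ≠ 0 := by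
    intro i j hij h0
    have := congrFun h0 i
    simp [Pi.single_eq_of_ne hij] at this
  have hall : ∀ i j : I, i ≠ j → (Pi.single i 1 + Pi.single j 1 : I → ZMod 2) ∈ tvW T := by
    intro i j hij
    exact H.same_type hpair (H.hB ⟨_, rfl⟩) (trans_pow_p _) (tv_ne_one (hpne _ _ hne)) (trans_pow_p _)
      (tv_ne_one (hpne _ _ hij)) (by rw [hcardp _ _ hne, hcardp _ _ hij])
  intro f hsf
  let c : ZMod 2 := ∑ i, f i
  let w : I → ZMod 2 := ∑ i, f i • (Pi.single i 1 + Pi.single i₀ 1)
  have hw : w ∈ tvW T := by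
    refine AddSubgroup.sum_mem _ fun i _ => ?_
    rcases hz2 (f i) with h | h
    · rw [h, zero_smul]
      exact AddSubgroup.zero_mem _
    · rw [h, one_smul]
      by_cases hi : i = i₀
      · subst hi
        have : (Pi.single i 1 + Pi.single i 1 : I → ZMod 2) = 0 := by
          funext k
          exact CharTwo.add_self_eq_zero _
        rw [this]
        exact AddSubgroup.zero_mem _
      · exact hall _ _ hi
  have hwf : w = f + Pi.single i₀ c := by
    funext k
    have h1 : w k = ∑ i, (f i * (Pi.single i (1 : ZMod 2) : I → ZMod 2) k + f i * (Pi.single i₀ (1 : ZMod 2) : I → ZMod 2) k) := by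
      simp only [w, Finset.sum_apply, Pi.smul_apply, Pi.add_apply, smul_eq_mul, mul_add]
    rw [h1, Finset.sum_add_distrib, ← Finset.sum_mul]
    have h2 : ∑ i, f i * (Pi.single i (1 : ZMod 2) : I → ZMod 2) k = f k := by
      rw [Finset.sum_eq_single k]
      · simp
      · intro b _ hb
        simp [Pi.single_eq_of_ne hb.symm]
      · simp
    rw [h2]
    simp only [Pi.add_apply, c]
    by_cases hk : k = i₀
    · subst hk
      simp
    · simp [Pi.single_eq_of_ne hk]
  have hf : f = w + Pi.single i₀ c := by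
    funext k
    simp only [Pi.add_apply, hwf, add_assoc, CharTwo.add_self_eq_zero, add_zero]
  have hs1 : sign (tv w : Perm (Yy 2 I R)) = 1 := H.hTs _ hw
  have hs2 : sign (zi i₀ c : Perm (Yy 2 I R)) = 1 := by
    have e : (tv f : Perm (Yy 2 I R)) = tv w * zi i₀ c := by
      conv_lhs => rw [hf]
      exact (trans_mul _ _).symm
    rw [e, map_mul, hs1, one_mul] at hsf
    exact hsf
  have hc0 : c = 0 := by
    by_contra hc
    rw [sign_zi _ hc] at hs2
    simp at hs2
  have : f = w := by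
    rw [hwf, hc0]
    simp
  rw [this]
  exact hw

/-- Every even translation lies in `T`. -/
theorem CH.all_tv (H : CH P T) (f : I → ZMod p) (hs : sign (tv f : Perm (Yy p I R)) = 1) :
    (tv f : Perm (Yy p I R)) ∈ T := by
  by_cases hp2 : p = 2
  · exact H.all_two hp2 f hs
  · exact tv_sum_mem T (H.all_zi_odd hp2) f

/-- Every even element of order `p` of `P` lies in `T`. -/
theorem CH.order_p (H : CH P T) {x : Perm (Yy p I R)} (hxP : x ∈ P) (hx : x ^ p = 1) (hs : sign x = 1) : x ∈ T := by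
  by_cases hne : x = 1
  · rw [hne]
    exact T.one_mem
  obtain ⟨k, -, hk⟩ := cycleType_rep hx hne
  have h1 : (k + 1) * p ≤ Fintype.card (Yy p I R) := by
    rw [hk]
    exact Finset.card_le_univ _
  have hkI : k + 1 ≤ Fintype.card I := by
    rw [card_Yy] at h1
    have hR := H.hR
    by_contra hcon
    push_neg at hcon
    have h2 : (Fintype.card I + 1) * p ≤ (k + 1) * p := Nat.mul_le_mul_right _ hcon
    nlinarith
  obtain ⟨K, -, hK⟩ := Finset.exists_subset_card_eq (s := (Finset.univ : Finset I)) (n := k + 1)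
    (by rwa [Finset.card_univ])
  let f : I → ZMod p := fun i => if i ∈ K then 1 else 0
  have hfilter : (Finset.univ.filter fun i => f i ≠ 0) = K := by
    ext i
    by_cases hi : i ∈ K
    · simp [f, hi]
    · simp [f, hi]
  have hf : f ≠ 0 := by
    intro h0
    have : (Finset.univ.filter fun i => f i ≠ 0) = ∅ := by
      rw [h0]
      simp
    rw [hfilter] at this
    rw [this] at hK
    simp at hK
  obtain ⟨g, hg, he⟩ := even_conj hx hne (trans_pow_p f) (tv_ne_one hf)
    (by rw [tv_support_card, hfilter, hK, ← hk, mul_comm]) H.hc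
  have hsf : sign (tv f : Perm (Yy p I R)) = 1 := by
    rw [← he]
    simp [hs]
  have hfT := H.all_tv f hsf
  have h3 := H.hcl _ hfT g⁻¹ (by simpa using hg) (by
    rw [← he]
    have e : g⁻¹ * (g * x * g⁻¹) * g⁻¹⁻¹ = x := by group
    rw [e]
    exact hxP)
  have e : g⁻¹ * tv f * g⁻¹⁻¹ = x := by
    rw [← he]
    group
  rwa [e] at h3

/-- The main theorem: `T` contains all the even elements of `P`. -/
theorem CH.main (H : CH P T) {x : Perm (Yy p I R)} (hx : x ∈ P) (hs : sign x = 1) : x ∈ T := by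
  have h := omega_even H.hR H.hP H.hB hx hs
  refine (Subgroup.closure_le _).2 ?_ h
  rintro z ⟨h1, h2, h3⟩
  exact H.order_p h1 h2 h3

end main

end Cfsg.Agent.Lib.AltFusion.Closed
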