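import Mathlib

/-!
# Monomial-affine permutations of blocks (helper20)

`Yy p I R = (I × ZMod p) ⊕ R`: blocks of size `p` indexed by `I` together with a rest `R`.  We study the group `AG` of the
permutations of the form `(i, y) ↦ (σ i, d i * y + a i)`, `r ↦ ρ r`, its base group of translations, and Sylow `p`-subgroups of
`Perm (Yy p I R)` containing the base group.
-/

set_option autoImplicit false
set_option linter.unusedSectionVars false

open Equiv Equiv.Perm

namespace Cfsg.Agent.Lib.AltFusion.Core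

universe u v

theorem piv {α : Type*} (f : Perm α) (x : α) : f⁻¹ (f x) = x := f.symm_apply_apply x

theorem pvi {α : Type*} (f : Perm α) (x : α) : f (f⁻¹ x) = x := f.apply_symm_apply x

section defs

variable (p : ℕ) [hp : Fact p.Prime] (I : Type u) (R : Type v)

/-- Blocks and rest. -/
abbrev Yy := (I × ZMod p) ⊕ R

variable {p I R}

/-- The permutation `(i, y) ↦ (σ i, d i * y + a i)`, `r ↦ ρ r`. -/
def aff (σ : Perm I) (d : I → (ZMod p)ˣ) (a : I → ZMod p) (ρ : Perm R) : Perm (Yy p I R) where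
  toFun := Sum.elim (fun q => .inl (σ q.1, (d q.1 : ZMod p) * q.2 + a q.1)) (fun r => .inr (ρ r))
  invFun := Sum.elim (fun q => .inl (σ⁻¹ q.1, (((d (σ⁻¹ q.1))⁻¹ : (ZMod p)ˣ) : ZMod p) * (q.2 - a (σ⁻¹ q.1))))
    (fun r => .inr (ρ⁻¹ r))
  left_inv := by
    rintro (⟨i, y⟩ | r)
    · simp only [Sum.elim_inl, piv, add_sub_cancel_right, Units.inv_mul_cancel_left]
    · simp only [Sum.elim_inr, piv]
  right_inv := by
    rintro (⟨i, y⟩ | r)
    · simp only [Sum.elim_inl, pvi, Units.mul_inv_cancel_left, sub_add_cancel]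
    · simp only [Sum.elim_inr, pvi]

@[simp] theorem aff_inl (σ : Perm I) (d : I → (ZMod p)ˣ) (a : I → ZMod p) (ρ : Perm R) (i : I) (y : ZMod p) :
    aff σ d a ρ (.inl (i, y)) = .inl (σ i, (d i : ZMod p) * y + a i) := rfl

@[simp] theorem aff_inr (σ : Perm I) (d : I → (ZMod p)ˣ) (a : I → ZMod p) (ρ : Perm R) (r : R) :
    aff σ d a ρ (.inr r) = .inr (ρ r) := rfl

theorem aff_mul (σ σ' : Perm I) (d d' : I → (ZMod p)ˣ) (a a' : I → ZMod p) (ρ ρ' : Perm R) :
    aff σ d a ρ * aff σ' d' a' ρ' =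
      aff (σ * σ') (fun i => d (σ' i) * d' i) (fun i => (d (σ' i) : ZMod p) * a' i + a (σ' i)) (ρ * ρ') := by
  ext x
  rcases x with ⟨i, y⟩ | r
  · simp only [Perm.mul_apply, aff_inl, Perm.coe_mul, Function.comp, Units.val_mul]
    congr 2
    ring
  · simp

theorem aff_one : (aff (1 : Perm I) (1 : I → (ZMod p)ˣ) (0 : I → ZMod p) (1 : Perm R)) = 1 := by
  ext x
  rcases x with ⟨i, y⟩ | r
  · simp
  · simp

theorem aff_inv (σ : Perm I) (d : I → (ZMod p)ˣ) (a : I → ZMod p) (ρ : Perm R) :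
    (aff σ d a ρ)⁻¹ = aff σ⁻¹ (fun i => (d (σ⁻¹ i))⁻¹) (fun i => -(((d (σ⁻¹ i))⁻¹ : (ZMod p)ˣ) : ZMod p) * a (σ⁻¹ i)) ρ⁻¹ := by
  rw [inv_eq_iff_mul_eq_one, aff_mul, ← aff_one]
  have e1 : σ * σ⁻¹ = 1 := mul_inv_cancel σ
  have e2 : ρ * ρ⁻¹ = 1 := mul_inv_cancel ρ
  congr 1
  · funext i
    show d (σ⁻¹ i) * (d (σ⁻¹ i))⁻¹ = 1
    exact mul_inv_cancel _
  · funext i
    show (d (σ⁻¹ i) : ZMod p) * (-(((d (σ⁻¹ i))⁻¹ : (ZMod p)ˣ) : ZMod p) * a (σ⁻¹ i)) + a (σ⁻¹ i) = 0
    rw [neg_mul, mul_neg, ← mul_assoc, Units.mul_inv, one_mul, neg_add_cancel]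

variable (p I R)

/-- The group of all affine-monomial permutations. -/
def AG : Subgroup (Perm (Yy p I R)) where
  carrier := {g | ∃ σ d a ρ, g = aff σ d a ρ}
  mul_mem' := by
    rintro _ _ ⟨σ, d, a, ρ, rfl⟩ ⟨σ', d', a', ρ', rfl⟩
    exact ⟨_, _, _, _, aff_mul _ _ _ _ _ _ _ _⟩
  one_mem' := ⟨1, 1, 0, 1, aff_one.symm⟩
  inv_mem' := by
    rintro _ ⟨σ, d, a, ρ, rfl⟩
    exact ⟨_, _, _, _, aff_inv _ _ _ _⟩

variable {p I R}

theorem aff_mem (σ : Perm I) (d : I → (ZMod p)ˣ) (a : I → ZMod p) (ρ : Perm R) : aff σ d a ρ ∈ AG p I R :=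
  ⟨σ, d, a, ρ, rfl⟩

/-- The permutation of blocks is determined. -/
theorem sigma_unique {σ σ' : Perm I} {d d' : I → (ZMod p)ˣ} {a a' : I → ZMod p} {ρ ρ' : Perm R}
    (h : aff σ d a ρ = aff σ' d' a' ρ') : σ = σ' := by
  ext i
  have h1 := congrArg (fun g : Perm (Yy p I R) => g (.inl (i, 0))) h
  simp only [aff_inl, Sum.inl.injEq, Prod.mk.injEq] at h1
  exact h1.1

theorem d_unique {σ σ' : Perm I} {d d' : I → (ZMod p)ˣ} {a a' : I → ZMod p} {ρ ρ' : Perm R}
    (h : aff σ d a ρ = aff σ' d' a' ρ') : d = d' ∧ a = a' ∧ ρ = ρ' := by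
  have h0 : ∀ i, a i = a' i := fun i => by
    have h1 := congrArg (fun g : Perm (Yy p I R) => g (.inl (i, 0))) h
    simp only [aff_inl, Sum.inl.injEq, Prod.mk.injEq, mul_zero, zero_add] at h1
    exact h1.2
  refine ⟨funext fun i => Units.ext ?_, funext h0, ?_⟩
  · have h1 := congrArg (fun g : Perm (Yy p I R) => g (.inl (i, 1))) h
    simp only [aff_inl, Sum.inl.injEq, Prod.mk.injEq, mul_one, h0 i] at h1
    exact add_right_cancel h1.2
  · ext r
    have h1 := congrArg (fun g : Perm (Yy p I R) => g (.inr r)) h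
    simp only [aff_inr, Sum.inr.injEq] at h1
    rw [h1]

/-- The map to the permutations of blocks. -/
noncomputable def piAG : AG p I R →* Perm I where
  toFun g := g.2.choose
  map_one' := by
    have h := (1 : AG p I R).2.choose_spec.choose_spec.choose_spec.choose_spec
    have h2 : ((1 : AG p I R) : Perm (Yy p I R)) = aff 1 1 0 1 := aff_one.symm
    exact (sigma_unique (h2.symm.trans h)).symm
  map_mul' := by
    intro g g'
    have h := (g * g').2.choose_spec.choose_spec.choose_spec.choose_spec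
    have h1 := g.2.choose_spec.choose_spec.choose_spec.choose_spec
    have h2 := g'.2.choose_spec.choose_spec.choose_spec.choose_spec
    have h3 : ((g * g' : AG p I R) : Perm (Yy p I R)) = (g : Perm (Yy p I R)) * (g' : Perm (Yy p I R)) := rfl
    have h4 : ((g * g' : AG p I R) : Perm (Yy p I R)) = _ := h3.trans (by rw [h1, h2, aff_mul])
    exact (sigma_unique (h4.symm.trans h)).symm

theorem piAG_aff (σ : Perm I) (d : I → (ZMod p)ˣ) (a : I → ZMod p) (ρ : Perm R) :
    piAG ⟨aff σ d a ρ, aff_mem σ d a ρ⟩ = σ := by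
  have h := (⟨aff σ d a ρ, aff_mem σ d a ρ⟩ : AG p I R).2.choose_spec.choose_spec.choose_spec.choose_spec
  exact (sigma_unique h).symm

theorem exists_form (g : AG p I R) : ∃ d a ρ, (g : Perm (Yy p I R)) = aff (piAG g) d a ρ :=
  g.2.choose_spec

/-- A translation. -/
def tv (f : I → ZMod p) : Perm (Yy p I R) := aff 1 1 f 1

@[simp] theorem trans_inl (f : I → ZMod p) (i : I) (y : ZMod p) :
    (tv f : Perm (Yy p I R)) (.inl (i, y)) = .inl (i, y + f i) := by
  simp [tv]

@[simp] theorem trans_inr (f : I → ZMod p) (r : R) : (tv f : Perm (Yy p I R)) (.inr r) = .inr r := by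
  simp [tv]

theorem trans_mul (f g : I → ZMod p) : (tv f * tv g : Perm (Yy p I R)) = tv (f + g) := by
  ext x
  rcases x with ⟨i, y⟩ | r
  · simp [add_assoc, add_comm, add_left_comm]
  · simp

theorem trans_zero : (tv (0 : I → ZMod p) : Perm (Yy p I R)) = 1 := aff_one

theorem trans_inv (f : I → ZMod p) : (tv f : Perm (Yy p I R))⁻¹ = tv (-f) := by
  rw [inv_eq_iff_mul_eq_one, trans_mul]
  simp [trans_zero]

theorem trans_pow (f : I → ZMod p) (n : ℕ) : (tv f : Perm (Yy p I R)) ^ n = tv (n • f) := by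
  induction n with
  | zero => simp [trans_zero]
  | succ n ih => rw [pow_succ, ih, trans_mul, succ_nsmul]

theorem trans_pow_p (f : I → ZMod p) : (tv f : Perm (Yy p I R)) ^ p = 1 := by
  rw [trans_pow]
  have : p • f = 0 := by
    funext i
    simp
  rw [this, trans_zero]

theorem trans_inj {f g : I → ZMod p} (h : (tv f : Perm (Yy p I R)) = tv g) : f = g :=
  (d_unique h).2.1

variable (p I R)

/-- The base group. -/
def B0 : Subgroup (Perm (Yy p I R)) where
  carrier := {g | ∃ f, g = tv f}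
  mul_mem' := by
    rintro _ _ ⟨f, rfl⟩ ⟨g, rfl⟩
    exact ⟨f + g, trans_mul f g⟩
  one_mem' := ⟨0, trans_zero.symm⟩
  inv_mem' := by
    rintro _ ⟨f, rfl⟩
    exact ⟨-f, trans_inv f⟩

variable {p I R}

theorem B0_le_AG : B0 p I R ≤ AG p I R := by
  rintro _ ⟨f, rfl⟩
  exact aff_mem _ _ _ _

theorem card_B0 [Fintype I] [DecidableEq I] : Nat.card (B0 p I R) = p ^ Fintype.card I := by
  have : Function.Bijective (fun f : I → ZMod p => (⟨tv f, f, rfl⟩ : B0 p I R)) := by
    constructor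
    · intro f g h
      exact trans_inj (congrArg Subtype.val h)
    · rintro ⟨_, f, rfl⟩
      exact ⟨f, rfl⟩
  rw [← Nat.card_eq_of_bijective _ this]
  simp [Nat.card_eq_fintype_card, ZMod.card]

/-- The translation in one block. -/
def zi [DecidableEq I] (i : I) (e : ZMod p) : Perm (Yy p I R) := tv (Pi.single i e)

end defs

end Cfsg.Agent.Lib.AltFusion.Core
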