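import Cfsg.Agent.S5160
import Cfsg.Agent.Lib.FusionSimple2.Abstract

/-!
# A chain criterion for simplicity of the fusion system of a group (helper20)
-/

set_option autoImplicit false
set_option linter.unusedSectionVars false

namespace Cfsg.Agent.Lib.AltFusion.Crit

open Cfsg Cfsg.FusionSystem Cfsg.Agent.Lib.Fusion.Basic Cfsg.Agent.Lib.Fusion.Saturation Cfsg.Agent.Lib.Fusion.Saturation2
open Cfsg.Agent.Lib.Fusion.GroupSystem Cfsg.Agent.Lib.FusionExt.Invariant Cfsg.Agent.Lib.FusionTheory.Centric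
open Cfsg.Agent.Lib.FusionSimple2.Abstract

variable {G : Type*} [Group G] [Finite G] {p : ℕ} [Fact p.Prime]

theorem isCentric_of {S R : Subgroup G} (hRS : R ≤ S) (hc : ∀ z : G, (∀ r ∈ R, z * r = r * z) → z ∈ R) :
    (groupFusionSystem S).IsCentric R := by
  refine ⟨hRS, fun Q hQ => ?_⟩
  obtain ⟨-, hQS, g, rfl⟩ := isConj_iff_conjMap.1 hQ
  rintro z ⟨-, hz⟩
  rw [mem_conjMap]
  apply hc
  intro r hr
  have h1 := (Subgroup.mem_centralizer_iff.1 hz) (g * r * g⁻¹) (conj_mem_conjMap hr)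
  calc g⁻¹ * z * g * r = g⁻¹ * (z * (g * r * g⁻¹)) * g := by group
    _ = g⁻¹ * ((g * r * g⁻¹) * z) * g := by rw [h1]
    _ = r * (g⁻¹ * z * g) := by group

section

variable (S : Sylow p G) {E : FusionSystem (S : Subgroup G)}

include S in
/-- Elements of `p`-power order normalizing `R` act on `R` as maps of a strongly invariant subsystem. -/
theorem xx_pelt (hSI : StrongInv (groupFusionSystem (S : Subgroup G)) E) {R : Subgroup G} (hRS : R ≤ (S : Subgroup G))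
    {g : G} (hg : ∀ q ∈ R, g * q * g⁻¹ ∈ R) {k : ℕ} (hk : g ^ p ^ k = 1) : XX E R g := by
  let F := groupFusionSystem (S : Subgroup G)
  have hSp : IsPGroup p (S : Subgroup G) := S.isPGroup'
  have hF : F.IsSaturated p := isSaturated S
  have hgN : g ∈ Subgroup.normalizer (R : Set G) := by
    refine Subgroup.mem_normalizer_iff.2 fun h => ⟨hg h, fun h2 => ?_⟩
    have := conj_inv_mem hg _ h2
    have e : g⁻¹ * (g * h * g⁻¹) * g⁻¹⁻¹ = h := by group
    rwa [e] at this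
  obtain ⟨Q, hRQ, hQn⟩ := exists_isFullyNormalized F hRS
  obtain ⟨-, hQS, c, rfl⟩ := isConj_iff_conjMap.1 hRQ
  let g' : G := c * g * c⁻¹
  have hg'N : g' ∈ Subgroup.normalizer ((conjMap c R : Subgroup G) : Set G) := by
    refine Subgroup.mem_normalizer_iff.2 fun h => ?_
    simp only [SetLike.mem_coe, mem_conjMap]
    have e : c⁻¹ * (g' * h * g'⁻¹) * c = g * (c⁻¹ * h * c) * g⁻¹ := by
      simp only [g']
      group
    rw [e]
    exact Subgroup.mem_normalizer_iff.1 hgN _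
  let τ : MulAut (conjMap c R : Subgroup G) := normAct _ hg'N
  have hτF : τ ∈ F.autGroup (conjMap c R) := (conj_aut_iff hQS _).2 ⟨g', fun x => rfl⟩
  have hg'k : g' ^ p ^ k = 1 := by
    simp only [g']
    rw [conj_pow, hk]
    simp
  have hτk : τ ^ p ^ k = 1 := by
    have h2 : (⟨g', hg'N⟩ : Subgroup.normalizer ((conjMap c R : Subgroup G) : Set G)) ^ p ^ k = 1 := Subtype.ext hg'k
    show ((conjMap c R).normalizerMonoidHom ⟨g', hg'N⟩) ^ p ^ k = 1
    rw [← map_pow, h2, map_one]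
  have h1 : τ ∈ E.autGroup (conjMap c R) := Cfsg.Agent.S5160.pElement_mem hSp F E hF hSI hQn hτF hτk
  let ψ : (conjMap c R : Subgroup G) →* G := conjHom _ c⁻¹
  have hψval : ∀ x : (conjMap c R : Subgroup G), ψ x ∈ R := by
    intro x
    have := mem_conjMap.1 x.2
    show c⁻¹ * (x : G) * c⁻¹⁻¹ ∈ R
    rwa [inv_inv]
  have hψ : ψ ∈ F.Hom (conjMap c R) := ⟨hQS, fun x => hRS (hψval x), c⁻¹, fun _ => rfl⟩
  have hrange : ψ.range = R := by
    apply le_antisymm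
    · rintro _ ⟨x, rfl⟩
      exact hψval x
    · intro r hr
      refine ⟨⟨c * r * c⁻¹, conj_mem_conjMap hr⟩, ?_⟩
      show c⁻¹ * (c * r * c⁻¹) * c⁻¹⁻¹ = r
      group
  have h2 : normAct R hgN ∈ E.autGroup R := by
    refine strong_conj_aut hSI hQS hψ hrange h1 (normAct R hgN) (fun x h => ?_)
    show g * (c⁻¹ * (x : G) * c⁻¹⁻¹) * g⁻¹ = c⁻¹ * (g' * (x : G) * g'⁻¹) * c⁻¹⁻¹
    simp only [g']
    group
  refine ⟨hg, ?_⟩
  have h3 := autHom_mem E hRS h2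
  convert h3 using 1
  ext x
  rfl

include S in
theorem xx_closure (hSI : StrongInv (groupFusionSystem (S : Subgroup G)) E) {R : Subgroup G} (hRS : R ≤ (S : Subgroup G))
    {g : G} (hg : g ∈ Subgroup.closure {x : G | x ^ p = 1 ∧ ∀ q ∈ R, x * q * x⁻¹ ∈ R}) : XX E R g := by
  induction hg using Subgroup.closure_induction with
  | mem x hx => exact xx_pelt S hSI hRS hx.2 (k := 1) (by simpa using hx.1)
  | one => exact XX_one hRS
  | mul a b _ _ ha hb => exact XX_mul ha hb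
  | inv a _ ha => exact XX_inv hRS ha

include S in
theorem xx_up (hEsat : E.IsSaturated p) (hsub : E.IsSubsystemOf (groupFusionSystem (S : Subgroup G))) {R Q : Subgroup G}
    (hRQ : R ≤ Q) (hQS : Q ≤ (S : Subgroup G)) (hc : ∀ z : G, (∀ r ∈ R, z * r = r * z) → z ∈ R) {g : G}
    (hgQ : ∀ q ∈ Q, g * q * g⁻¹ ∈ Q) (h : XX E R g) : XX E Q g := by
  have hSp : IsPGroup p (S : Subgroup G) := S.isPGroup'
  have hF := isSaturated S
  have hψ : conjHom Q g ∈ (groupFusionSystem (S : Subgroup G)).Hom Q :=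
    ⟨hQS, fun x => hQS (hgQ x x.2), g, fun _ => rfl⟩
  exact ⟨hgQ, mem_of_restrict _ hSp hF E hEsat hsub (isCentric_of (hRQ.trans hQS) hc) hRQ hψ h.2⟩

theorem xx_down {R Q : Subgroup G} (hRQ : R ≤ Q) {g : G} (hgR : ∀ q ∈ R, g * q * g⁻¹ ∈ R) (h : XX E Q g) : XX E R g :=
  ⟨hgR, restrict_mem' E hRQ h.2 _ (fun _ => rfl)⟩

include S in
/-- The chain criterion for a single element of `N_G(S)`. -/
theorem good_chain (hEsat : E.IsSaturated p) (hsub : E.IsSubsystemOf (groupFusionSystem (S : Subgroup G)))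
    (hSI : StrongInv (groupFusionSystem (S : Subgroup G)) E) {B R₁ R₂ : Subgroup G}
    (hR₂S : R₂ ≤ (S : Subgroup G)) (hR₁R₂ : R₁ ≤ R₂) (hBR₂ : B ≤ R₂)
    (hcB : ∀ z : G, (∀ r ∈ B, z * r = r * z) → z ∈ B) (hcR₁ : ∀ z : G, (∀ r ∈ R₁, z * r = r * z) → z ∈ R₁)
    {g h : G} (hgS : ∀ q ∈ (S : Subgroup G), g * q * g⁻¹ ∈ (S : Subgroup G)) (hgB : ∀ q ∈ B, g * q * g⁻¹ ∈ B)
    (h1 : h ∈ Subgroup.closure {x : G | x ^ p = 1 ∧ ∀ q ∈ R₁, x * q * x⁻¹ ∈ R₁})
    (hhR₂ : ∀ q ∈ R₂, h * q * h⁻¹ ∈ R₂) (hhB : ∀ q ∈ B, h * q * h⁻¹ ∈ B) {k : ℕ}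
    (hz : g * h ^ k ∈ Subgroup.closure {x : G | x ^ p = 1 ∧ ∀ q ∈ B, x * q * x⁻¹ ∈ B}) :
    conjHom (S : Subgroup G) g ∈ E.Hom (S : Subgroup G) := by
  have hBS : B ≤ (S : Subgroup G) := hBR₂.trans hR₂S
  have hR₁S : R₁ ≤ (S : Subgroup G) := hR₁R₂.trans hR₂S
  have x1 : XX E R₁ h := xx_closure S hSI hR₁S h1
  have x2 : XX E R₂ h := xx_up S hEsat hsub hR₁R₂ hR₂S hcR₁ hhR₂ x1
  have x3 : XX E B h := xx_down S hBR₂ hhB x2
  have x4 : XX E B (g * h ^ k) := xx_closure S hSI hBS hz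
  have x5 : XX E B g := by
    have := XX_mul x4 (XX_inv hBS (XX_pow hBS x3 k))
    rwa [mul_inv_cancel_right] at this
  exact (xx_up S hEsat hsub hBS le_rfl hcB hgS x5).2

/-- The final criterion. -/
theorem simple_of_good (hS1 : (S : Subgroup G) ≠ ⊥)
    (hT : ∀ T : Subgroup G, T ≤ (S : Subgroup G) → T ≠ ⊥ →
      (∀ x ∈ T, ∀ g : G, g * x * g⁻¹ ∈ (S : Subgroup G) → g * x * g⁻¹ ∈ T) → T = S)
    (hgood : ∀ E : FusionSystem (S : Subgroup G), E.IsSaturated p → E.IsSubsystemOf (groupFusionSystem (S : Subgroup G)) →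
      StrongInv (groupFusionSystem (S : Subgroup G)) E →
      ∀ g : G, (∀ q ∈ (S : Subgroup G), g * q * g⁻¹ ∈ (S : Subgroup G)) → conjHom (S : Subgroup G) g ∈ E.Hom (S : Subgroup G)) :
    (groupFusionSystem (S : Subgroup G)).IsSimple p := by
  refine ⟨isSaturated S, hS1, fun T E hE => ?_⟩
  obtain ⟨⟨hEsat, -, hsub, hsc, hinv, hfr⟩, -⟩ := hE
  by_cases hbot : T = ⊥
  · exact Or.inl hbot
  right
  have hTS : T = S := hT T hsc.1 hbot (Cfsg.Agent.Lib.FusionSimple.Basic.closed_of_stronglyClosed hsc)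
  subst hTS
  have hSI := strong_of_inv hinv hfr
  refine ⟨rfl, fun P => Set.Subset.antisymm (hsub P) ?_⟩
  intro φ hφ
  have hP : P ≤ (S : Subgroup G) := ((groupFusionSystem (S : Subgroup G)).le_of_mem hφ).1
  obtain ⟨α, hα, φ₀, hφ₀, hfac⟩ := hfr P hP φ hφ
  obtain ⟨g, hgS, hgα⟩ := exists_conj_of_aut hα
  have hφ₀S : ∀ x : P, φ₀ x ∈ (S : Subgroup G) := (E.le_of_mem hφ₀).2
  have hc := E.comp_mem hφ₀ (hgood E hEsat hsub hSI g hgS) hφ₀S
  convert hc using 1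
  ext x
  rw [hfac x (hφ₀S x), hgα]
  rfl

end

end Cfsg.Agent.Lib.AltFusion.Crit
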