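import Cfsg.Agent.Lib.AltFusion.OddGrid
import Cfsg.Agent.Lib.AltFusion.Crit

/-!
# The fusion systems of alternating groups are simple (helper20)
-/

set_option autoImplicit false
set_option linter.unusedSectionVars false

open Equiv Equiv.Perm

namespace Cfsg.Agent.Lib.AltFusion.Main

open Cfsg Cfsg.FusionSystem
open Cfsg.Agent.Lib.AltFusion.Core Cfsg.Agent.Lib.AltFusion.Blocks Cfsg.Agent.Lib.AltFusion.Syl
open Cfsg.Agent.Lib.AltFusion.Closed Cfsg.Agent.Lib.AltFusion.NormTwo Cfsg.Agent.Lib.AltFusion.OddZ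
open Cfsg.Agent.Lib.AltFusion.OddGrid Cfsg.Agent.Lib.AltFusion.Crit

section ctx

variable {G : Type*} [Group G] [Finite G] {p : ℕ} [hp : Fact p.Prime] {I R : Type} [Fintype I] [DecidableEq I]
  [Fintype R] [DecidableEq R]

/-- A faithful action of `G` as the alternating group of `Y`, in which `S` is the even part of `P`. -/
structure PsiCtx (ψ : G →* Perm (Yy p I R)) (S : Sylow p G) (P : Subgroup (Perm (Yy p I R))) : Prop where
  inj : Function.Injective ψ
  surj : ∀ y, sign y = 1 → ∃ x, ψ x = y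
  even : ∀ x, sign (ψ x) = 1
  memS : ∀ x, x ∈ (S : Subgroup G) ↔ ψ x ∈ P

variable {ψ : G →* Perm (Yy p I R)} {S : Sylow p G} {P : Subgroup (Perm (Yy p I R))}

theorem PsiCtx.hT (C : PsiCtx ψ S P) (hR : Fintype.card R < p) (hI : 3 ≤ Fintype.card I)
    (hc : p + 1 < Fintype.card (Yy p I R)) (hP : IsSyl p P) (hB : B0 p I R ≤ P)
    (hQ : p = 2 → ∃ i₀ i₁ : I, i₀ ≠ i₁ ∧ (lift (swap i₀ i₁) : Perm (Yy p I R)) ∈ P)
    (T : Subgroup G) (hTS : T ≤ (S : Subgroup G)) (hne : T ≠ ⊥)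
    (hcl : ∀ x ∈ T, ∀ g : G, g * x * g⁻¹ ∈ (S : Subgroup G) → g * x * g⁻¹ ∈ T) : T = S := by
  have H : CH P (T.map ψ) :=
    { hR := hR
      hI := hI
      hc := hc
      hP := hP
      hB := hB
      hTP := by
        rintro _ ⟨t, ht, rfl⟩
        exact (C.memS t).1 (hTS ht)
      hTs := by
        rintro _ ⟨t, -, rfl⟩
        exact C.even t
      hne := fun h => hne ((Subgroup.map_eq_bot_iff_of_injective _ C.inj).1 h)
      hcl := by
        rintro _ ⟨t, ht, rfl⟩ g hg hgP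
        obtain ⟨g₀, rfl⟩ := C.surj g hg
        have e : ψ g₀ * ψ t * (ψ g₀)⁻¹ = ψ (g₀ * t * g₀⁻¹) := by
          rw [map_mul, map_mul, map_inv]
        rw [e] at hgP ⊢
        exact ⟨_, hcl t ht g₀ ((C.memS _).2 hgP), rfl⟩
      hQ := hQ }
  apply le_antisymm hTS
  intro x hx
  obtain ⟨t, ht, hte⟩ := H.main ((C.memS x).1 hx) (C.even x)
  rwa [← C.inj hte]

theorem PsiCtx.ne_bot (C : PsiCtx ψ S P) (hI : 3 ≤ Fintype.card I) (hB : B0 p I R ≤ P) : (S : Subgroup G) ≠ ⊥ := by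
  obtain ⟨i, k, hik⟩ : ∃ i k : I, i ≠ k := by
    obtain ⟨i⟩ : Nonempty I := Fintype.card_pos_iff.1 (by omega)
    obtain ⟨k, hk, -⟩ := exists_third hI i i
    exact ⟨i, k, hk.symm⟩
  let v : Perm (Yy p I R) := zi i 1 * zi k 1
  have hv1 : v = tv (Pi.single i 1 + Pi.single k 1) := trans_mul _ _
  have hvP : v ∈ P := by
    rw [hv1]
    exact hB ⟨_, rfl⟩
  have hvs : sign v = 1 := by
    simp only [v, map_mul, sign_zi i one_ne_zero, sign_zi k one_ne_zero]
    simp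
  have hvne : v ≠ 1 := by
    rw [hv1]
    apply tv_ne_one
    intro h0
    have := congrFun h0 i
    simp [Pi.single_eq_of_ne hik] at this
  obtain ⟨x, hx⟩ := C.surj v hvs
  intro hbot
  have h1 : x ∈ (S : Subgroup G) := (C.memS x).2 (hx ▸ hvP)
  rw [hbot, Subgroup.mem_bot] at h1
  apply hvne
  rw [← hx, h1, map_one]

end ctx

section two

variable {G : Type*} [Group G] [Finite G] {I R : Type} [Fintype I] [DecidableEq I] [Fintype R] [DecidableEq R]
variable {ψ : G →* Perm (Yy 2 I R)} {S : Sylow 2 G} {P : Subgroup (Perm (Yy 2 I R))}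

theorem simple_two (C : PsiCtx ψ S P) (hR : Fintype.card R < 2) (hI : 3 ≤ Fintype.card I)
    (hc : 2 + 1 < Fintype.card (Yy 2 I R)) (hP : IsSyl 2 P) (hB : B0 2 I R ≤ P)
    (hQ : ∃ i₀ i₁ : I, i₀ ≠ i₁ ∧ (lift (swap i₀ i₁) : Perm (Yy 2 I R)) ∈ P) :
    (groupFusionSystem (S : Subgroup G)).IsSimple 2 := by
  refine simple_of_good S (C.ne_bot hI hB) (C.hT hR hI hc hP hB (fun _ => hQ)) ?_
  intro E _ _ _ g hg
  apply E.conj_mem le_rfl
  rw [C.memS]
  apply selfnorm_two hR hI hP hB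
  intro s hs hss
  obtain ⟨s₀, rfl⟩ := C.surj s hss
  have h1 : g * s₀ * g⁻¹ ∈ (S : Subgroup G) := hg _ ((C.memS s₀).2 hs)
  have h2 := (C.memS _).1 h1
  rwa [map_mul, map_mul, map_inv] at h2

end two

section odd

variable {G : Type*} [Group G] [Finite G] {p : ℕ} [hp : Fact p.Prime] {J R : Type} [Fintype J] [DecidableEq J]
  [Fintype R] [DecidableEq R]
variable {ψ : G →* Perm (Yy p (ZMod p ⊕ J) R)} {S : Sylow p G} {P : Subgroup (Perm (Yy p (ZMod p ⊕ J) R))}

theorem sign_of_ppow (hp2 : p ≠ 2) {X : Type} [Fintype X] [DecidableEq X] {x : Perm X} {k : ℕ} (hx : x ^ p ^ k = 1) : sign x = 1 := by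
  have hodd : Odd (p ^ k) := (hp.out.odd_of_ne_two hp2).pow
  have h1 : sign x ^ p ^ k = 1 := by rw [← map_pow, hx, map_one]
  rcases Int.units_eq_one_or (sign x) with h | h
  · exact h
  · rw [h, hodd.neg_one_pow] at h1
    exact absurd h1 (by decide)

/-- Pulling a closure back along `ψ`. -/
theorem pull (C : PsiCtx ψ S P) (hp2 : p ≠ 2) (A : Subgroup (Perm (Yy p (ZMod p ⊕ J) R))) {y : Perm (Yy p (ZMod p ⊕ J) R)}
    (hy : y ∈ Subgroup.closure {x | x ^ p = 1 ∧ ∀ w ∈ A, x * w * x⁻¹ ∈ A}) :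
    ∃ x ∈ Subgroup.closure {x : G | x ^ p = 1 ∧ ∀ q ∈ A.comap ψ, x * q * x⁻¹ ∈ A.comap ψ}, ψ x = y := by
  induction hy using Subgroup.closure_induction with
  | mem y hy =>
    obtain ⟨x, rfl⟩ := C.surj y (sign_of_pow_p hp2 hy.1)
    refine ⟨x, Subgroup.subset_closure ⟨?_, fun q hq => ?_⟩, rfl⟩
    · apply C.inj
      rw [map_pow, hy.1, map_one]
    · show ψ (x * q * x⁻¹) ∈ A
      rw [map_mul, map_mul, map_inv]
      exact hy.2 _ hq
  | one => exact ⟨1, Subgroup.one_mem _, map_one _⟩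
  | mul a b _ _ ha hb =>
    obtain ⟨x, hx, rfl⟩ := ha
    obtain ⟨x', hx', rfl⟩ := hb
    exact ⟨_, Subgroup.mul_mem _ hx hx', map_mul _ _ _⟩
  | inv a _ ha =>
    obtain ⟨x, hx, rfl⟩ := ha
    exact ⟨_, Subgroup.inv_mem _ hx, map_inv _ _⟩

theorem simple_odd (C : PsiCtx ψ S P) (hp2 : p ≠ 2) (hR : Fintype.card R < 2)
    (hc : p + 1 < Fintype.card (Yy p (ZMod p ⊕ J) R)) (hP : IsSyl p P) (hQ : Q2 p J R ≤ P) :
    (groupFusionSystem (S : Subgroup G)).IsSimple p := by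
  have hB : B0 p (ZMod p ⊕ J) R ≤ P := B0_le_Q2.trans hQ
  have hp3 : 3 ≤ p := by
    have := hp.out.two_le
    omega
  have hI : 3 ≤ Fintype.card (ZMod p ⊕ J) := by
    rw [Fintype.card_sum, ZMod.card]
    omega
  have hPeven : ∀ y ∈ P, sign y = 1 := by
    intro y hy
    obtain ⟨k, hk⟩ := hP.pgroup ⟨y, hy⟩
    exact sign_of_ppow hp2 (k := k) (congrArg Subtype.val hk)
  have hRp : Fintype.card R < p := by omega
  refine simple_of_good S (C.ne_bot hI hB) (C.hT hRp hI hc hP hB (fun h => absurd h hp2)) ?_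
  intro E hEsat hsub hSI g hgS
  obtain ⟨ν, hν⟩ := IsCyclic.exists_generator (α := (ZMod p)ˣ)
  have hgN : ∀ y ∈ P, ψ g * y * (ψ g)⁻¹ ∈ P := by
    intro y hy
    obtain ⟨s, rfl⟩ := C.surj y (hPeven y hy)
    have h1 := (C.memS _).1 (hgS s ((C.memS s).2 hy))
    rwa [map_mul, map_mul, map_inv] at h1
  have hgAG : ψ g ∈ AG p (ZMod p ⊕ J) R := by
    apply mem_AG_of_conj
    intro i
    have h1 : (1 : ZMod p) ≠ 0 := one_ne_zero
    refine cycle_mem hRp hP.pgroup hB (hgN _ (hB (zi_mem_B0 i 1))) (zi_isCycle i h1).conj ?_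
    rw [card_support_conj, zi_card i h1]
  obtain ⟨k, hk⟩ := odd_factor hp2 hR ν hν hgAG (C.even g)
  obtain ⟨h₀, hh₀, hh₀e⟩ := pull C hp2 (R1 p J R) (hh_mem ν)
  have hZ : Zg p (ZMod p ⊕ J) R ≤ Subgroup.closure {x | x ^ p = 1 ∧ ∀ w ∈ B0 p (ZMod p ⊕ J) R, x * w * x⁻¹ ∈ B0 p (ZMod p ⊕ J) R} :=
    Subgroup.closure_mono fun x hx => ⟨hx.2, fun w hw => AG_conj_B0 hx.1 hw⟩
  obtain ⟨z, hz, hze⟩ := pull C hp2 (B0 p (ZMod p ⊕ J) R) (hZ hk)
  have hze' : z = g * h₀ ^ k := by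
    apply C.inj
    rw [hze, map_mul, map_pow, hh₀e]
  rw [hze'] at hz
  have hhAG : (hh ν : Perm (Yy p (ZMod p ⊕ J) R)) ∈ AG p (ZMod p ⊕ J) R := by
    rw [hh_eq_aff]
    exact aff_mem _ _ _ _
  refine good_chain S hEsat hsub hSI (B := (B0 p (ZMod p ⊕ J) R).comap ψ) (R₁ := (R1 p J R).comap ψ)
    (R₂ := (Q2 p J R).comap ψ) (h := h₀) (k := k) ?_ ?_ ?_ ?_ ?_ hgS ?_ hh₀ ?_ ?_ hz
  · intro x hx
    exact (C.memS x).2 (hQ hx)
  · intro x hx
    exact R1_le_Q2 hx
  · intro x hx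
    exact B0_le_Q2 hx
  · intro z hz
    show ψ z ∈ B0 p (ZMod p ⊕ J) R
    apply cent_B0 hR
    intro f
    have h1 : sign (tv f : Perm (Yy p (ZMod p ⊕ J) R)) = 1 := sign_of_pow_p hp2 (trans_pow_p f)
    obtain ⟨x, hx⟩ := C.surj _ h1
    rw [← hx, ← map_mul, ← map_mul, hz x (show ψ x ∈ B0 p (ZMod p ⊕ J) R from hx ▸ ⟨f, rfl⟩)]
  · intro z hz
    show ψ z ∈ R1 p J R
    apply cent_R1 hR
    intro w hw
    obtain ⟨x, rfl⟩ := C.surj _ (hPeven w (hQ (R1_le_Q2 hw)))
    rw [← map_mul, ← map_mul, hz x hw]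
  · intro q hq
    show ψ (g * q * g⁻¹) ∈ B0 p (ZMod p ⊕ J) R
    rw [map_mul, map_mul, map_inv]
    exact AG_conj_B0 hgAG hq
  · intro q hq
    show ψ (h₀ * q * h₀⁻¹) ∈ Q2 p J R
    rw [map_mul, map_mul, map_inv, hh₀e]
    exact hh_conj_Q2 ν hq
  · intro q hq
    show ψ (h₀ * q * h₀⁻¹) ∈ B0 p (ZMod p ⊕ J) R
    rw [map_mul, map_mul, map_inv, hh₀e]
    exact AG_conj_B0 hhAG hq

end odd

section final

variable {p : ℕ} [hp : Fact p.Prime] {I R : Type} [Fintype I] [DecidableEq I] [Fintype R] [DecidableEq R]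

/-- Coordinates for a Sylow subgroup of an alternating group. -/
theorem exists_ctx {n : ℕ} (S : Sylow p (alternatingGroup (Fin n))) (hcard : Fintype.card (Fin n) = Fintype.card (Yy p I R))
    {A : Subgroup (Perm (Yy p I R))} (hA : IsPGroup p A) :
    ∃ (ψ : alternatingGroup (Fin n) →* Perm (Yy p I R)) (P : Subgroup (Perm (Yy p I R))),
      PsiCtx ψ S P ∧ IsSyl p P ∧ A ≤ P := by
  let ι := (alternatingGroup (Fin n)).subtype
  have hι : Function.Injective ι := Subtype.val_injective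
  have hS₀ : IsPGroup p ((S : Subgroup (alternatingGroup (Fin n))).map ι) := S.isPGroup'.map ι
  obtain ⟨PX, hle⟩ := hS₀.exists_le_sylow
  have hPX : IsSyl p (PX : Subgroup (Perm (Fin n))) := by
    have h1 := PX.card_eq_multiplicity
    rwa [Nat.card_eq_fintype_card (α := Perm (Fin n)), Fintype.card_perm] at h1
  obtain ⟨e, he⟩ := exists_std hPX hcard hA
  refine ⟨e.permCongrHom.toMonoidHom.comp ι, _, ⟨?_, ?_, ?_, ?_⟩, hPX.map e, he⟩
  · intro a b hab
    exact hι (e.permCongrHom.injective hab)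
  · intro y hy
    refine ⟨⟨e.permCongrHom.symm y, ?_⟩, ?_⟩
    · rw [Equiv.Perm.mem_alternatingGroup]
      have h1 : sign (e.permCongr (e.permCongrHom.symm y)) = sign (e.permCongrHom.symm y) := sign_permCongr _ _
      rw [← h1, ← hy]
      congr 1
      exact e.permCongrHom.apply_symm_apply y
    · exact e.permCongrHom.apply_symm_apply y
  · intro x
    have h1 : sign (e.permCongr (x : Perm (Fin n))) = sign (x : Perm (Fin n)) := sign_permCongr _ _
    show sign (e.permCongr (x : Perm (Fin n))) = 1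
    rw [h1]
    exact x.2
  · intro x
    constructor
    · intro hx
      exact ⟨_, hle ⟨x, hx, rfl⟩, rfl⟩
    · rintro ⟨w, hw, hwe⟩
      have h1 : w = (x : Perm (Fin n)) := e.permCongrHom.injective hwe
      have hQ : IsPGroup p (((PX : Subgroup (Perm (Fin n)))).comap ι) := PX.isPGroup'.comap_of_injective ι hι
      have hSQ : (S : Subgroup (alternatingGroup (Fin n))) ≤ (PX : Subgroup (Perm (Fin n))).comap ι := fun s hs =>
        hle ⟨s, hs, rfl⟩
      have := S.is_maximal' hQ hSQ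
      rw [← this]
      show (x : Perm (Fin n)) ∈ (PX : Subgroup (Perm (Fin n)))
      rw [← h1]
      exact hw

/-- The main theorem. -/
theorem main (n p : ℕ) (hn : 6 ≤ n) [hp : Fact p.Prime] (hnp : p ^ 2 ≤ n) (hb : n % p ≤ 1)
    (S : Sylow p (alternatingGroup (Fin n))) :
    (groupFusionSystem (S : Subgroup (alternatingGroup (Fin n)))).IsSimple p := by
  by_cases hp2 : p = 2
  · subst hp2
    let I := Fin (n / 2)
    let R := Fin (n % 2)
    have hIc : Fintype.card I = n / 2 := Fintype.card_fin _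
    have hRc : Fintype.card R = n % 2 := Fintype.card_fin _
    have hI : 3 ≤ Fintype.card I := by
      rw [hIc]
      omega
    have hR : Fintype.card R < 2 := by
      rw [hRc]
      omega
    have hcard : Fintype.card (Fin n) = Fintype.card (Yy 2 I R) := by
      rw [card_Yy, hIc, hRc, Fintype.card_fin, Nat.div_add_mod]
    obtain ⟨i₀, i₁, hne⟩ : ∃ i₀ i₁ : I, i₀ ≠ i₁ := by
      obtain ⟨i⟩ : Nonempty I := Fintype.card_pos_iff.1 (by omega)
      obtain ⟨k, hk, -⟩ := exists_third hI i i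
      exact ⟨i, k, hk.symm⟩
    have hswap : (swap i₀ i₁) ^ 2 ^ 1 = 1 := by
      rw [pow_one, pow_two, swap_mul_self]
    obtain ⟨ψ, P, C, hP, hA⟩ := exists_ctx (I := I) (R := R) S hcard
      (Qg_pgroup (H := Subgroup.zpowers (swap i₀ i₁)) (isP_zpowers hswap))
    refine simple_two C hR hI ?_ hP ((B0_le_Qg _).trans hA) ⟨i₀, i₁, hne, hA (lift_mem_Qg (Subgroup.mem_zpowers _))⟩
    rw [← hcard, Fintype.card_fin]
    omega
  · have hp3 : 3 ≤ p := by
      have := hp.out.two_le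
      omega
    have hm : p ≤ n / p := by
      rw [Nat.le_div_iff_mul_le hp.out.pos]
      rw [pow_two] at hnp
      exact hnp
    let J := Fin (n / p - p)
    let R := Fin (n % p)
    have hRc : Fintype.card R = n % p := Fintype.card_fin _
    have hR : Fintype.card R < 2 := by
      rw [hRc]
      omega
    have hcard : Fintype.card (Fin n) = Fintype.card (Yy p (ZMod p ⊕ J) R) := by
      rw [card_Yy, hRc, Fintype.card_fin, Fintype.card_sum, ZMod.card, Fintype.card_fin, Nat.add_sub_cancel' hm,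
        Nat.div_add_mod]
    obtain ⟨ψ, P, C, hP, hA⟩ := exists_ctx S hcard (Q2_pgroup (p := p) (J := J) (R := R))
    refine simple_odd C hp2 hR ?_ hP hA
    rw [← hcard, Fintype.card_fin]
    nlinarith

end final

end Cfsg.Agent.Lib.AltFusion.Main
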