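import Cfsg.Agent.Lib.AltFusion.Closed
import Cfsg.Agent.Lib.Core.Residual

/-!
# Sylow `2`-subgroups of alternating groups are self-normalizing, for few fixed points (helper20)
-/

set_option autoImplicit false
set_option linter.unusedSectionVars false

open Equiv Equiv.Perm

namespace Cfsg.Agent.Lib.AltFusion.NormTwo

open Cfsg.Agent.Lib.AltFusion.Core Cfsg.Agent.Lib.AltFusion.Blocks Cfsg.Agent.Lib.AltFusion.Syl
open Cfsg.Agent.Lib.AltFusion.Closed

theorem zmod2_cases2 (w y : ZMod 2) : w = y ∨ w = y + 1 := by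
  revert w y
  decide

section core

variable {I R : Type} [Fintype I] [DecidableEq I] [Fintype R] [DecidableEq R]

theorem perm_eq_one_of_card (hR : Fintype.card R < 2) (ρ : Perm R) : ρ = 1 := by
  have : Subsingleton R := Fintype.card_le_one_iff_subsingleton.1 (by omega)
  ext r
  exact Subsingleton.elim _ _

theorem norm_two_core (hR : Fintype.card R < 2) {P : Subgroup (Perm (Yy 2 I R))} (hP : IsPGroup 2 P) (hB : B0 2 I R ≤ P)
    {x : Perm (Yy 2 I R)} (hodd : Odd (orderOf x)) (hx : ∀ w ∈ P, x * w * x⁻¹ ∈ P)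
    (ih : ∀ σ : Perm I, Odd (orderOf σ) → (∀ τ ∈ barr P, σ * τ * σ⁻¹ ∈ barr P) → σ = 1) : x = 1 := by
  have h1 : (1 : ZMod 2) ≠ 0 := one_ne_zero
  have hxAG : x ∈ AG 2 I R := by
    apply mem_AG_of_conj
    intro i
    refine cycle_mem hR hP hB (hx _ (hB (zi_mem_B0 i 1))) (zi_isCycle i h1).conj ?_
    rw [card_support_conj, zi_card i h1]
  have hPAG := le_AG hR hP hB
  obtain ⟨σ, d, a, ρ, rfl⟩ := hxAG
  have hσodd : Odd (orderOf σ) := by
    have h2 : (⟨aff σ d a ρ, aff_mem σ d a ρ⟩ : AG 2 I R) ^ orderOf (aff σ d a ρ) = 1 :=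
      Subtype.ext (pow_orderOf_eq_one _)
    have h3 := congrArg piAG h2
    rw [map_pow, piAG_aff, map_one] at h3
    exact Odd.of_dvd_nat hodd (orderOf_dvd_of_pow_eq_one h3)
  have hσ1 : σ = 1 := by
    apply ih σ hσodd
    intro τ hτ
    obtain ⟨d', a', ρ', hw⟩ := (mem_barr hPAG).1 hτ
    rw [mem_barr hPAG]
    have h2 := hx _ hw
    rw [aff_inv, aff_mul, aff_mul] at h2
    exact ⟨_, _, _, h2⟩
  subst hσ1
  have hd : d = 1 := Subsingleton.elim _ _
  have hρ : ρ = 1 := perm_eq_one_of_card hR ρ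
  subst hd hρ
  have h2 : (aff 1 1 a 1 : Perm (Yy 2 I R)) ^ 2 = 1 := trans_pow_p a
  have h3 : orderOf (aff 1 1 a 1 : Perm (Yy 2 I R)) ∣ 2 := orderOf_dvd_of_pow_eq_one h2
  have h4 : orderOf (aff 1 1 a 1 : Perm (Yy 2 I R)) = 1 := by
    rcases (Nat.dvd_prime Nat.prime_two).1 h3 with h | h
    · exact h
    · rw [h] at hodd
      exact absurd hodd (by decide)
  exact orderOf_eq_one_iff.1 h4

end core

/-- An element of odd order normalizing a Sylow `2`-subgroup of a symmetric group is trivial. -/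
theorem norm_two_aux (n : ℕ) : ∀ (X : Type) [Fintype X] [DecidableEq X], Fintype.card X = n → ∀ P : Subgroup (Perm X),
    IsSyl 2 P → ∀ x : Perm X, Odd (orderOf x) → (∀ w ∈ P, x * w * x⁻¹ ∈ P) → x = 1 := by
  induction n using Nat.strong_induction_on with
  | _ n ih =>
    intro X _ _ hX P hP x hodd hx
    by_cases hn : n < 2
    · have : Subsingleton X := Fintype.card_le_one_iff_subsingleton.1 (by omega)
      ext r
      exact Subsingleton.elim _ _
    · push_neg at hn
      let I := Fin (n / 2)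
      let R := Fin (n % 2)
      have hIc : Fintype.card I = n / 2 := Fintype.card_fin _
      have hRc : Fintype.card R = n % 2 := Fintype.card_fin _
      have hR : Fintype.card R < 2 := by
        rw [hRc]
        exact Nat.mod_lt _ (by norm_num)
      have hXY : Fintype.card X = Fintype.card (Yy 2 I R) := by
        rw [card_Yy, hIc, hRc, hX, Nat.div_add_mod]
      obtain ⟨e, he⟩ := exists_std hP hXY (tv_pgroup (p := 2) (I := I) (R := R))
      have hP' := hP.map e
      let x' : Perm (Yy 2 I R) := e.permCongrHom x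
      have hodd' : Odd (orderOf x') := by
        rw [MulEquiv.orderOf_eq]
        exact hodd
      have hx' : ∀ w ∈ P.map (e.permCongrHom.toMonoidHom), x' * w * x'⁻¹ ∈ P.map (e.permCongrHom.toMonoidHom) := by
        rintro _ ⟨w, hw, rfl⟩
        refine ⟨x * w * x⁻¹, hx w hw, ?_⟩
        show e.permCongrHom (x * w * x⁻¹) = x' * e.permCongrHom w * x'⁻¹
        rw [map_mul, map_mul, map_inv]
      have h1 : x' = 1 := norm_two_core hR hP'.pgroup he hodd' hx' (fun σ hσ hστ =>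
        ih (n / 2) (Nat.div_lt_self (by omega) (by norm_num)) I hIc _ (isSyl_barr hR hP' he) σ hσ hστ)
      apply e.permCongrHom.injective
      rw [map_one]
      exact h1

section main

variable {I R : Type} [Fintype I] [DecidableEq I] [Fintype R] [DecidableEq R]

/-- Normalizing the even part of `P`. -/
def NS (P : Subgroup (Perm (Yy 2 I R))) (x : Perm (Yy 2 I R)) : Prop := ∀ s ∈ P, sign s = 1 → x * s * x⁻¹ ∈ P

variable {P : Subgroup (Perm (Yy 2 I R))}

theorem NS.mul {a b : Perm (Yy 2 I R)} (ha : NS P a) (hb : NS P b) : NS P (a * b) := by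
  intro s hs hss
  have e : a * b * s * (a * b)⁻¹ = a * (b * s * b⁻¹) * a⁻¹ := by group
  rw [e]
  exact ha _ (hb s hs hss) (by simp [hss])

theorem NS.pow {a : Perm (Yy 2 I R)} (ha : NS P a) (n : ℕ) : NS P (a ^ n) := by
  induction n with
  | zero =>
    intro s hs _
    simpa using hs
  | succ n ih =>
    rw [pow_succ]
    exact ih.mul ha

theorem NS.inv {a : Perm (Yy 2 I R)} (ha : NS P a) : NS P a⁻¹ := by
  have h : a⁻¹ = a ^ (orderOf a - 1) := by
    apply inv_eq_of_mul_eq_one_right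
    rw [← pow_succ', Nat.sub_add_cancel (orderOf_pos a), pow_orderOf_eq_one]
  rw [h]
  exact ha.pow _

theorem NS_of_mem {z : Perm (Yy 2 I R)} (hz : z ∈ P) : NS P z := fun _ hs _ =>
  P.mul_mem (P.mul_mem hz hs) (P.inv_mem hz)

theorem zi_eq_swap (j : I) (y : ZMod 2) :
    (zi j 1 : Perm (Yy 2 I R)) = swap (.inl (j, y)) (.inl (j, y + 1)) := by
  ext x
  rcases x with ⟨i, w⟩ | r
  · by_cases hi : i = j
    · subst hi
      rw [zi_self]
      rcases zmod2_cases2 w y with rfl | rfl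
      · rw [swap_apply_left]
      · rw [swap_apply_right, add_assoc, CharTwo.add_self_eq_zero, add_zero]
    · rw [zi_ne hi, swap_apply_of_ne_of_ne]
      · simp [hi]
      · simp [hi]
  · rw [zi_inr, swap_apply_of_ne_of_ne]
    · simp
    · simp

theorem sign_zi_two (j : I) : sign (zi j 1 : Perm (Yy 2 I R)) = -1 := by
  rw [sign_zi j one_ne_zero]
  simp

/-- A transposition normalizing the even part of `P` lies in the base group. -/
theorem key_two (hR : Fintype.card R < 2) (hI : 3 ≤ Fintype.card I) (hP : IsPGroup 2 P) (hB : B0 2 I R ≤ P)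
    {τ : Perm (Yy 2 I R)} (hsw : τ.IsSwap) (hτ : NS P τ) : ∃ j, τ = zi j 1 := by
  obtain ⟨a₀, b₀, hab₀, rfl⟩ := hsw
  obtain ⟨j, y, b, hab, hτe⟩ : ∃ j y b, (.inl (j, y) : Yy 2 I R) ≠ b ∧ swap a₀ b₀ = swap (.inl (j, y)) b := by
    rcases a₀ with ⟨j, y⟩ | r
    · exact ⟨j, y, b₀, hab₀, rfl⟩
    · rcases b₀ with ⟨j, y⟩ | r'
      · exact ⟨j, y, .inr r, by simp, swap_comm _ _⟩
      · exfalso
        have : Subsingleton R := Fintype.card_le_one_iff_subsingleton.1 (by omega)
        exact hab₀ (congrArg _ (Subsingleton.elim r r'))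
  rw [hτe] at hτ ⊢
  set a : Yy 2 I R := .inl (j, y) with ha
  set a' : Yy 2 I R := .inl (j, y + 1) with ha'
  have haa' : a ≠ a' := by
    simp [ha, ha']
  have hzj : (zi j 1 : Perm (Yy 2 I R)) = swap a a' := zi_eq_swap j y
  by_cases hb : b = a'
  · exact ⟨j, by rw [hb, hzj]⟩
  exfalso
  -- a block avoiding everything
  obtain ⟨k, hkj, hkb⟩ : ∃ k, k ≠ j ∧ ∀ w, b ≠ .inl (k, w) := by
    let K : Finset I := match b with
      | .inl q => {j, q.1}
      | .inr _ => {j}
    have hK : K.card ≤ 2 := by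
      rcases b with q | r
      · exact Finset.card_le_two
      · simp [K]
    obtain ⟨k, -, hk⟩ := Finset.exists_mem_notMem_of_card_lt_card (s := K) (t := Finset.univ) (by
      rw [Finset.card_univ]
      omega)
    refine ⟨k, ?_, ?_⟩
    · rintro rfl
      apply hk
      rcases b with q | r <;> simp [K]
    · rintro w rfl
      apply hk
      simp [K]
  have hkne : (.inl (j, y) : Yy 2 I R) ≠ b := hab
  have hza : (zi k 1 : Perm (Yy 2 I R)) a = a := zi_ne hkj.symm _ _
  have hza' : (zi k 1 : Perm (Yy 2 I R)) a' = a' := zi_ne hkj.symm _ _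
  have hzb : (zi k 1 : Perm (Yy 2 I R)) b = b := by
    by_contra h
    obtain ⟨w, hw⟩ := zi_moved h
    exact hkb w hw
  let y₃ : Perm (Yy 2 I R) := swap a b * swap a a'
  have h3c : y₃.IsThreeCycle := isThreeCycle_swap_mul_swap_same hab haa' (fun h => hb h)
  have hy3 : y₃ ^ 3 = 1 := by
    rw [← h3c.orderOf]
    exact pow_orderOf_eq_one _
  have hy₃N : NS P y₃ := hτ.mul (hzj ▸ NS_of_mem (hB (zi_mem_B0 j 1)))
  let s : Perm (Yy 2 I R) := zi j 1 * zi k 1
  have hsP : s ∈ P := P.mul_mem (hB (zi_mem_B0 j 1)) (hB (zi_mem_B0 k 1))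
  have hss : sign s = 1 := by
    simp only [s, map_mul, sign_zi_two]
    rfl
  have hconj : s * y₃ * s⁻¹ = y₃⁻¹ := by
    have e1 : (zi k 1 : Perm (Yy 2 I R)) * y₃ * (zi k 1 : Perm (Yy 2 I R))⁻¹ = y₃ := by
      have e2 : (zi k 1 : Perm (Yy 2 I R)) * swap a b * (zi k 1 : Perm (Yy 2 I R))⁻¹ = swap a b := by
        rw [← swap_apply_apply, hza, hzb]
      have e3 : (zi k 1 : Perm (Yy 2 I R)) * swap a a' * (zi k 1 : Perm (Yy 2 I R))⁻¹ = swap a a' := by
        rw [← swap_apply_apply, hza, hza']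
      have e4 : (zi k 1 : Perm (Yy 2 I R)) * y₃ * (zi k 1 : Perm (Yy 2 I R))⁻¹ =
          ((zi k 1 : Perm (Yy 2 I R)) * swap a b * (zi k 1 : Perm (Yy 2 I R))⁻¹) *
            ((zi k 1 : Perm (Yy 2 I R)) * swap a a' * (zi k 1 : Perm (Yy 2 I R))⁻¹) := by
        simp only [y₃]
        group
      rw [e4, e2, e3]
    have e5 : s * y₃ * s⁻¹ = (zi j 1 : Perm (Yy 2 I R)) * ((zi k 1 : Perm (Yy 2 I R)) * y₃ * (zi k 1 : Perm (Yy 2 I R))⁻¹) *
        (zi j 1 : Perm (Yy 2 I R))⁻¹ := by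
      simp only [s]
      group
    rw [e5, e1, hzj]
    simp only [y₃, mul_inv_rev, swap_inv, mul_assoc, swap_mul_self, mul_one]
  have hmem : s * (y₃ * s⁻¹ * y₃⁻¹) ∈ P := P.mul_mem hsP (hy₃N _ (P.inv_mem hsP) (by simp [hss]))
  have e6 : s * (y₃ * s⁻¹ * y₃⁻¹) = y₃ := by
    have : s * (y₃ * s⁻¹ * y₃⁻¹) = (s * y₃ * s⁻¹) * y₃⁻¹ := by group
    rw [this, hconj]
    have h3 : y₃⁻¹ * y₃⁻¹ = y₃ := by
      rw [← mul_inv_rev, inv_eq_iff_mul_eq_one]
      rw [← pow_two, ← pow_succ]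
      exact hy3
    exact h3
  rw [e6] at hmem
  obtain ⟨m, hm⟩ := hP ⟨y₃, hmem⟩
  have hm' : y₃ ^ 2 ^ m = 1 := congrArg Subtype.val hm
  have h7 : orderOf y₃ ∣ 2 ^ m := orderOf_dvd_of_pow_eq_one hm'
  rw [h3c.orderOf] at h7
  have h8 : (3 : ℕ).Prime := Nat.prime_three
  have := h8.dvd_of_dvd_pow h7
  omega

theorem conj_two (hR : Fintype.card R < 2) (hI : 3 ≤ Fintype.card I) (hP : IsPGroup 2 P) (hB : B0 2 I R ≤ P)
    {x : Perm (Yy 2 I R)} (hx : NS P x) (i : I) : ∃ j, x * zi i 1 * x⁻¹ = zi j 1 := by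
  apply key_two hR hI hP hB
  · rw [← card_support_eq_two, card_support_conj, zi_card i one_ne_zero]
  · exact (hx.mul (NS_of_mem (hB (zi_mem_B0 i 1)))).mul hx.inv

theorem norm_of_NS (hR : Fintype.card R < 2) (hI : 3 ≤ Fintype.card I) (hP : IsPGroup 2 P) (hB : B0 2 I R ≤ P)
    {x : Perm (Yy 2 I R)} (hx : NS P x) : ∀ w ∈ P, x * w * x⁻¹ ∈ P := by
  intro w hw
  rcases Int.units_eq_one_or (sign w) with h | h
  · exact hx w hw h
  · obtain ⟨i⟩ : Nonempty I := Fintype.card_pos_iff.1 (by omega)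
    have hz := hB (zi_mem_B0 i 1)
    have h1 := hx (w * zi i 1) (P.mul_mem hw hz) (by
      rw [map_mul, h, sign_zi_two]
      rfl)
    obtain ⟨j, hj⟩ := conj_two hR hI hP hB hx i
    have h2 : x * (zi i 1)⁻¹ * x⁻¹ ∈ P := by
      have e : x * (zi i 1)⁻¹ * x⁻¹ = (x * zi i 1 * x⁻¹)⁻¹ := by group
      rw [e, hj]
      exact P.inv_mem (hB (zi_mem_B0 j 1))
    have e : x * w * x⁻¹ = (x * (w * zi i 1) * x⁻¹) * (x * (zi i 1)⁻¹ * x⁻¹) := by group
    rw [e]
    exact P.mul_mem h1 h2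

/-- The even part of `P` is self-normalizing in the alternating group, with the usual conditions. -/
theorem selfnorm_two (hR : Fintype.card R < 2) (hI : 3 ≤ Fintype.card I) (hP : IsSyl 2 P) (hB : B0 2 I R ≤ P)
    {x : Perm (Yy 2 I R)} (hx : NS P x) : x ∈ P := by
  have hNP := norm_of_NS hR hI hP.pgroup hB hx
  obtain ⟨u, v, huv, -, ⟨k, hk⟩, hv, hu', hv'⟩ :=
    Cfsg.Agent.Lib.Core.Residual.exists_pPart_pPrimePart 2 x (isOfFinOrder_of_finite x)
  have hpow : ∀ n : ℕ, ∀ w ∈ P, x ^ n * w * (x ^ n)⁻¹ ∈ P := by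
    intro n
    induction n with
    | zero =>
      intro w hw
      simpa using hw
    | succ n ih =>
      intro w hw
      have e : x ^ (n + 1) * w * (x ^ (n + 1))⁻¹ = x ^ n * (x * w * x⁻¹) * (x ^ n)⁻¹ := by
        rw [pow_succ]
        group
      rw [e]
      exact ih _ (hNP w hw)
  obtain ⟨m, hm⟩ := (mem_powers_iff_mem_zpowers).2 hv'
  obtain ⟨m', hm'⟩ := (mem_powers_iff_mem_zpowers).2 hu'
  replace hm : x ^ m = v := hm
  replace hm' : x ^ m' = u := hm'
  subst hm hm'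
  have hv1 : x ^ m = 1 := by
    apply norm_two_aux _ _ rfl P hP
    · rcases Nat.even_or_odd (orderOf (x ^ m)) with h | h
      · exfalso
        have h2 : 2 ∣ Nat.gcd (orderOf (x ^ m)) 2 := Nat.dvd_gcd h.two_dvd dvd_rfl
        rw [hv] at h2
        omega
      · exact h
    · exact hpow m
  rw [hv1, mul_one] at huv
  rw [huv] at hk
  have hxinv : ∀ w ∈ P, x⁻¹ * w * x ∈ P := by
    intro w hw
    have h := hpow (orderOf x - 1) w hw
    have e : x ^ (orderOf x - 1) = x⁻¹ := by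
      apply eq_inv_of_mul_eq_one_left
      rw [← pow_succ, Nat.sub_add_cancel (orderOf_pos x), pow_orderOf_eq_one]
    rw [e, inv_inv] at h
    exact h
  have hnorm : Subgroup.zpowers x ≤ Subgroup.normalizer (P : Set (Perm (Yy 2 I R))) := by
    rw [Subgroup.zpowers_le, Subgroup.mem_normalizer_iff]
    intro w
    constructor
    · exact hNP w
    · intro h
      have h2 := hxinv _ h
      have e : x⁻¹ * (x * w * x⁻¹) * x = w := by group
      rwa [e] at h2
  have hsup := IsPGroup.to_sup_of_normal_right' (isP_zpowers hk) hP.pgroup hnorm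
  let S : Sylow 2 (Perm (Yy 2 I R)) := Sylow.ofCard _ hP.card_eq
  have hmax : Subgroup.zpowers x ⊔ P = P := S.is_maximal' hsup le_sup_right
  rw [← hmax]
  exact (le_sup_left : Subgroup.zpowers x ≤ _) (Subgroup.mem_zpowers _)

end main

end Cfsg.Agent.Lib.AltFusion.NormTwo
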