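import Cfsg.Agent.Lib.AltFusion.OddZ

/-!
# The grid on the first `p` blocks and an element generating the multiplier quotient (helper20)
-/

set_option autoImplicit false
set_option linter.unusedSectionVars false

open Equiv Equiv.Perm

namespace Cfsg.Agent.Lib.AltFusion.OddGrid

open Cfsg.Agent.Lib.AltFusion.Core Cfsg.Agent.Lib.AltFusion.Blocks Cfsg.Agent.Lib.AltFusion.Syl
open Cfsg.Agent.Lib.AltFusion.Closed Cfsg.Agent.Lib.AltFusion.NormTwo Cfsg.Agent.Lib.AltFusion.OddZ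

variable {p : ℕ} [hp : Fact p.Prime] {J R : Type} [Fintype J] [DecidableEq J] [Fintype R] [DecidableEq R]

/-- Rotation of the first `p` blocks. -/
def rotK (k : ZMod p) : Perm (ZMod p ⊕ J) := Perm.sumCongr (Equiv.addRight k) 1

@[simp] theorem rotK_inl (k x : ZMod p) : (rotK k : Perm (ZMod p ⊕ J)) (.inl x) = .inl (x + k) := rfl

@[simp] theorem rotK_inr (k : ZMod p) (j : J) : (rotK k : Perm (ZMod p ⊕ J)) (.inr j) = .inr j := rfl

theorem rotK_pow (n : ℕ) : (rotK 1 : Perm (ZMod p ⊕ J)) ^ n = rotK (n : ZMod p) := by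
  induction n with
  | zero =>
    ext x
    rcases x with x | j
    · simp
    · simp
  | succ n ih =>
    rw [pow_succ, ih]
    ext x
    rcases x with x | j
    · simp [add_assoc, add_comm, add_left_comm]
    · simp

theorem rotK_mem (k : ZMod p) : (rotK k : Perm (ZMod p ⊕ J)) ∈ Subgroup.zpowers (rotK 1) := by
  have := rotK_pow (p := p) (J := J) k.val
  rw [ZMod.natCast_zmod_val] at this
  rw [← this]
  exact Subgroup.npow_mem_zpowers _ _

theorem rotK_pow_p : (rotK 1 : Perm (ZMod p ⊕ J)) ^ p = 1 := by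
  rw [rotK_pow, ZMod.natCast_self]
  ext x
  rcases x with x | j
  · simp
  · simp

/-- A translation of the grid together with translations of the other blocks. -/
def gT (k b : ZMod p) (c : J → ZMod p) : Perm (Yy p (ZMod p ⊕ J) R) := aff (rotK k) 1 (Sum.elim (fun _ => b) c) 1

theorem gT_grid (k b : ZMod p) (c : J → ZMod p) (x y : ZMod p) :
    (gT k b c : Perm (Yy p (ZMod p ⊕ J) R)) (.inl (.inl x, y)) = .inl (.inl (x + k), y + b) := by
  simp [gT]

theorem gT_block (k b : ZMod p) (c : J → ZMod p) (j : J) (y : ZMod p) :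
    (gT k b c : Perm (Yy p (ZMod p ⊕ J) R)) (.inl (.inr j, y)) = .inl (.inr j, y + c j) := by
  simp [gT]

theorem gT_R (k b : ZMod p) (c : J → ZMod p) (r : R) :
    (gT k b c : Perm (Yy p (ZMod p ⊕ J) R)) (.inr r) = .inr r := by
  simp [gT]

theorem gT_mul (k b k' b' : ZMod p) (c c' : J → ZMod p) :
    (gT k b c * gT k' b' c' : Perm (Yy p (ZMod p ⊕ J) R)) = gT (k + k') (b + b') (c + c') := by
  ext z
  rcases z with ⟨x | j, y⟩ | r
  · simp only [Perm.mul_apply, gT_grid, Sum.inl.injEq, Prod.mk.injEq, true_and]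
    simp [add_assoc, add_comm, add_left_comm]
  · simp only [Perm.mul_apply, gT_block, Sum.inl.injEq, Prod.mk.injEq, true_and]
    simp [add_assoc, add_comm, add_left_comm]
  · simp only [Perm.mul_apply, gT_R]

theorem gT_zero : (gT 0 0 0 : Perm (Yy p (ZMod p ⊕ J) R)) = 1 := by
  ext z
  rcases z with ⟨x | j, y⟩ | r
  · simp only [gT_grid, add_zero, Perm.one_apply]
  · simp only [gT_block, Pi.zero_apply, add_zero, Perm.one_apply]
  · simp only [gT_R, Perm.one_apply]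

variable (p J R) in
/-- The elementary abelian subgroup with the regular action on the grid. -/
def R1 : Subgroup (Perm (Yy p (ZMod p ⊕ J) R)) where
  carrier := {g | ∃ k b c, g = gT k b c}
  mul_mem' := by
    rintro _ _ ⟨k, b, c, rfl⟩ ⟨k', b', c', rfl⟩
    exact ⟨_, _, _, gT_mul _ _ _ _ _ _⟩
  one_mem' := ⟨0, 0, 0, gT_zero.symm⟩
  inv_mem' := by
    rintro _ ⟨k, b, c, rfl⟩
    refine ⟨-k, -b, -c, ?_⟩
    rw [inv_eq_iff_mul_eq_one, gT_mul]
    simp [gT_zero]

variable (p J R) in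
/-- The subgroup generated by the base group and the rotation of the first `p` blocks. -/
def Q2 : Subgroup (Perm (Yy p (ZMod p ⊕ J) R)) := Qg (Subgroup.zpowers (rotK 1))

theorem Q2_pgroup : IsPGroup p (Q2 p J R) := Qg_pgroup (isP_zpowers (k := 1) (by rw [pow_one]; exact rotK_pow_p))

theorem R1_le_Q2 : R1 p J R ≤ Q2 p J R := by
  rintro _ ⟨k, b, c, rfl⟩
  exact ⟨rotK k, rotK_mem k, _, rfl⟩

theorem B0_le_Q2 : B0 p (ZMod p ⊕ J) R ≤ Q2 p J R := B0_le_Qg _

theorem mem_Q2_form {x : Perm (Yy p (ZMod p ⊕ J) R)} (hx : x ∈ Q2 p J R) :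
    ∃ k a, x = aff (rotK k) 1 a 1 := by
  obtain ⟨σ, hσ, a, rfl⟩ := hx
  obtain ⟨n, hn⟩ := (mem_powers_iff_mem_zpowers).2 hσ
  replace hn : (rotK 1 : Perm (ZMod p ⊕ J)) ^ n = σ := hn
  subst hn
  rw [rotK_pow]
  exact ⟨_, a, rfl⟩

/-! ### Permutations of the grid -/

/-- The underlying function of the extension of a permutation of the grid. -/
def gF (φ : Perm (ZMod p × ZMod p)) : Yy p (ZMod p ⊕ J) R → Yy p (ZMod p ⊕ J) R := fun z =>
  match z with
  | .inl (.inl x, y) => .inl (.inl (φ (x, y)).1, (φ (x, y)).2)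
  | .inl (.inr j, y) => .inl (.inr j, y)
  | .inr r => .inr r

/-- The extension of a permutation of the grid. -/
def gE (φ : Perm (ZMod p × ZMod p)) : Perm (Yy p (ZMod p ⊕ J) R) where
  toFun := gF φ
  invFun := gF φ⁻¹
  left_inv := by
    rintro (⟨x | j, y⟩ | r)
    · show Sum.inl (Sum.inl (φ⁻¹ (φ (x, y))).1, (φ⁻¹ (φ (x, y))).2) = _
      rw [piv]
    · rfl
    · rfl
  right_inv := by
    rintro (⟨x | j, y⟩ | r)
    · show Sum.inl (Sum.inl (φ (φ⁻¹ (x, y))).1, (φ (φ⁻¹ (x, y))).2) = _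
      rw [pvi]
    · rfl
    · rfl

theorem gE_grid (φ : Perm (ZMod p × ZMod p)) (x y : ZMod p) :
    (gE φ : Perm (Yy p (ZMod p ⊕ J) R)) (.inl (.inl x, y)) = .inl (.inl (φ (x, y)).1, (φ (x, y)).2) := rfl

theorem gE_block (φ : Perm (ZMod p × ZMod p)) (j : J) (y : ZMod p) :
    (gE φ : Perm (Yy p (ZMod p ⊕ J) R)) (.inl (.inr j, y)) = .inl (.inr j, y) := rfl

theorem gE_R (φ : Perm (ZMod p × ZMod p)) (r : R) :
    (gE φ : Perm (Yy p (ZMod p ⊕ J) R)) (.inr r) = .inr r := rfl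

theorem gE_mul (φ ψ : Perm (ZMod p × ZMod p)) :
    (gE (φ * ψ) : Perm (Yy p (ZMod p ⊕ J) R)) = gE φ * gE ψ := by
  ext z
  rcases z with ⟨x | j, y⟩ | r
  · simp only [Perm.mul_apply, gE_grid]
  · simp only [Perm.mul_apply, gE_block]
  · simp only [Perm.mul_apply, gE_R]

theorem gE_one : (gE (1 : Perm (ZMod p × ZMod p)) : Perm (Yy p (ZMod p ⊕ J) R)) = 1 := by
  ext z
  rcases z with ⟨x | j, y⟩ | r
  · simp only [gE_grid, Perm.one_apply]
  · simp only [gE_block, Perm.one_apply]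
  · simp only [gE_R, Perm.one_apply]

theorem gE_pow (φ : Perm (ZMod p × ZMod p)) (n : ℕ) :
    (gE (φ ^ n) : Perm (Yy p (ZMod p ⊕ J) R)) = (gE φ) ^ n := by
  induction n with
  | zero => rw [pow_zero, pow_zero, gE_one]
  | succ n ih => rw [pow_succ, pow_succ, gE_mul, ih]

/-- A transvection. -/
def E12 (a : ZMod p) : Perm (ZMod p × ZMod p) where
  toFun q := (q.1 + a * q.2, q.2)
  invFun q := (q.1 - a * q.2, q.2)
  left_inv q := by simp
  right_inv q := by simp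

/-- A transvection. -/
def E21 (a : ZMod p) : Perm (ZMod p × ZMod p) where
  toFun q := (q.1, q.2 + a * q.1)
  invFun q := (q.1, q.2 - a * q.1)
  left_inv q := by simp
  right_inv q := by simp

/-- A diagonal map of determinant one. -/
def H0 (ν : (ZMod p)ˣ) : Perm (ZMod p × ZMod p) where
  toFun q := ((ν : ZMod p) * q.1, ((ν⁻¹ : (ZMod p)ˣ) : ZMod p) * q.2)
  invFun q := (((ν⁻¹ : (ZMod p)ˣ) : ZMod p) * q.1, (ν : ZMod p) * q.2)
  left_inv q := by simp only [Units.inv_mul_cancel_left, Units.mul_inv_cancel_left]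
  right_inv q := by simp only [Units.inv_mul_cancel_left, Units.mul_inv_cancel_left]

theorem H0_eq (ν : (ZMod p)ˣ) : H0 ν =
    E12 (ν : ZMod p) * E21 (-((ν⁻¹ : (ZMod p)ˣ) : ZMod p)) * E12 (ν : ZMod p) * E12 (-1) * E21 1 * E12 (-1) := by
  have huv : (ν : ZMod p) * ((ν⁻¹ : (ZMod p)ˣ) : ZMod p) = 1 := Units.mul_inv ν
  ext q
  · show (ν : ZMod p) * q.1 = _
    simp only [Perm.mul_apply, E12, E21, coe_fn_mk]
    linear_combination ((ν : ZMod p) * q.1 - q.2) * huv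
  · show ((ν⁻¹ : (ZMod p)ˣ) : ZMod p) * q.2 = _
    simp only [Perm.mul_apply, E12, E21, coe_fn_mk]
    linear_combination q.1 * huv

theorem E12_pow_p (a : ZMod p) : (E12 a) ^ p = 1 := by
  have h : ∀ n : ℕ, (E12 a) ^ n = E12 ((n : ZMod p) * a) := by
    intro n
    induction n with
    | zero =>
      ext q <;> simp [E12]
    | succ n ih =>
      rw [pow_succ, ih]
      ext q
      · simp [E12]
        ring
      · simp [E12]
  rw [h, ZMod.natCast_self]
  ext q <;> simp [E12]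

theorem E21_pow_p (a : ZMod p) : (E21 a) ^ p = 1 := by
  have h : ∀ n : ℕ, (E21 a) ^ n = E21 ((n : ZMod p) * a) := by
    intro n
    induction n with
    | zero =>
      ext q <;> simp [E21]
    | succ n ih =>
      rw [pow_succ, ih]
      ext q
      · simp [E21]
      · simp [E21]
        ring
  rw [h, ZMod.natCast_self]
  ext q <;> simp [E21]

theorem gE_conj_gT {φ : Perm (ZMod p × ZMod p)} (hφ : ∀ q q', φ (q + q') = φ q + φ q') (k b : ZMod p) (c : J → ZMod p) :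
    (gE φ * gT k b c * (gE φ)⁻¹ : Perm (Yy p (ZMod p ⊕ J) R)) = gT (φ (k, b)).1 (φ (k, b)).2 c := by
  rw [mul_inv_eq_iff_eq_mul]
  ext z
  rcases z with ⟨x | j, y⟩ | r
  · simp only [Perm.mul_apply, gT_grid, gE_grid]
    have : φ (x + k, y + b) = φ (x, y) + φ (k, b) := by
      rw [← hφ]
      rfl
    rw [this]
    rfl
  · simp only [Perm.mul_apply, gT_block, gE_block]
  · simp only [Perm.mul_apply, gT_R, gE_R]

theorem gE_conj_R1 {φ : Perm (ZMod p × ZMod p)} (hφ : ∀ q q', φ (q + q') = φ q + φ q') {w : Perm (Yy p (ZMod p ⊕ J) R)}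
    (hw : w ∈ R1 p J R) : gE φ * w * (gE φ)⁻¹ ∈ R1 p J R := by
  obtain ⟨k, b, c, rfl⟩ := hw
  rw [gE_conj_gT hφ]
  exact ⟨_, _, _, rfl⟩

theorem E12_add (a : ZMod p) (q q' : ZMod p × ZMod p) : E12 a (q + q') = E12 a q + E12 a q' := by
  show ((q + q').1 + a * (q + q').2, (q + q').2) = (q.1 + a * q.2 + (q'.1 + a * q'.2), q.2 + q'.2)
  simp only [Prod.fst_add, Prod.snd_add, Prod.mk.injEq, and_true]
  ring

theorem E21_add (a : ZMod p) (q q' : ZMod p × ZMod p) : E21 a (q + q') = E21 a q + E21 a q' := by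
  show ((q + q').1, (q + q').2 + a * (q + q').1) = (q.1 + q'.1, q.2 + a * q.1 + (q'.2 + a * q'.1))
  simp only [Prod.fst_add, Prod.snd_add, Prod.mk.injEq, true_and]
  ring

/-- The element generating the multiplier quotient. -/
def hh (ν : (ZMod p)ˣ) : Perm (Yy p (ZMod p ⊕ J) R) := gE (H0 ν)

theorem E12_mem (a : ZMod p) : (gE (E12 a) : Perm (Yy p (ZMod p ⊕ J) R)) ∈
    Subgroup.closure {x | x ^ p = 1 ∧ ∀ w ∈ R1 p J R, x * w * x⁻¹ ∈ R1 p J R} :=
  Subgroup.subset_closure ⟨by rw [← gE_pow, E12_pow_p, gE_one], fun _ hw => gE_conj_R1 (E12_add a) hw⟩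

theorem E21_mem (a : ZMod p) : (gE (E21 a) : Perm (Yy p (ZMod p ⊕ J) R)) ∈
    Subgroup.closure {x | x ^ p = 1 ∧ ∀ w ∈ R1 p J R, x * w * x⁻¹ ∈ R1 p J R} :=
  Subgroup.subset_closure ⟨by rw [← gE_pow, E21_pow_p, gE_one], fun _ hw => gE_conj_R1 (E21_add a) hw⟩

theorem hh_mem (ν : (ZMod p)ˣ) : (hh ν : Perm (Yy p (ZMod p ⊕ J) R)) ∈
    Subgroup.closure {x | x ^ p = 1 ∧ ∀ w ∈ R1 p J R, x * w * x⁻¹ ∈ R1 p J R} := by
  unfold hh
  rw [H0_eq, gE_mul, gE_mul, gE_mul, gE_mul, gE_mul]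
  exact Subgroup.mul_mem _ (Subgroup.mul_mem _ (Subgroup.mul_mem _ (Subgroup.mul_mem _ (Subgroup.mul_mem _
    (E12_mem _) (E21_mem _)) (E12_mem _)) (E12_mem _)) (E21_mem _)) (E12_mem _)

/-- The permutation of blocks induced by `hh`. -/
def mulK (ν : (ZMod p)ˣ) : Perm (ZMod p ⊕ J) := Perm.sumCongr (Units.mulLeft ν) 1

/-- The multipliers of `hh`. -/
def dh (ν : (ZMod p)ˣ) : ZMod p ⊕ J → (ZMod p)ˣ := Sum.elim (fun _ => ν⁻¹) (fun _ => 1)

theorem hh_eq_aff (ν : (ZMod p)ˣ) : (hh ν : Perm (Yy p (ZMod p ⊕ J) R)) = aff (mulK ν) (dh ν) 0 1 := by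
  ext z
  rcases z with ⟨x | j, y⟩ | r
  · rw [aff_inl]
    show Sum.inl (Sum.inl ((ν : ZMod p) * x), ((ν⁻¹ : (ZMod p)ˣ) : ZMod p) * y) =
      Sum.inl (Sum.inl ((ν : ZMod p) * x), ((ν⁻¹ : (ZMod p)ˣ) : ZMod p) * y + 0)
    rw [add_zero]
  · rw [aff_inl]
    show Sum.inl (Sum.inr j, y) = Sum.inl (Sum.inr j, (1 : ZMod p) * y + 0)
    rw [one_mul, add_zero]
  · rw [aff_inr]
    rfl

theorem prod_dh (ν : (ZMod p)ˣ) : ∏ i, (dh ν : ZMod p ⊕ J → (ZMod p)ˣ) i = ν⁻¹ := by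
  rw [Fintype.prod_sum_type]
  simp only [dh, Sum.elim_inl, Sum.elim_inr, Finset.prod_const_one, mul_one, Finset.prod_const, Finset.card_univ, ZMod.card]
  have h1 : (ν⁻¹) ^ (p - 1) = 1 := ZMod.units_pow_card_sub_one_eq_one p _
  have h2 := hp.out.one_le
  calc (ν⁻¹) ^ p = (ν⁻¹) ^ (p - 1 + 1) := by rw [Nat.sub_add_cancel h2]
    _ = ν⁻¹ := by rw [pow_succ, h1, one_mul]

theorem hh_conj_Q2 (ν : (ZMod p)ˣ) {x : Perm (Yy p (ZMod p ⊕ J) R)} (hx : x ∈ Q2 p J R) :
    hh ν * x * (hh ν)⁻¹ ∈ Q2 p J R := by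
  obtain ⟨k, a, rfl⟩ := mem_Q2_form hx
  let a' : ZMod p ⊕ J → ZMod p := Sum.elim
    (fun s => ((ν⁻¹ : (ZMod p)ˣ) : ZMod p) * a (.inl (((ν⁻¹ : (ZMod p)ˣ) : ZMod p) * s))) (fun j => a (.inr j))
  have h : hh ν * aff (rotK k) 1 a 1 * (hh ν)⁻¹ = aff (rotK ((ν : ZMod p) * k)) 1 a' (1 : Perm R) := by
    rw [mul_inv_eq_iff_eq_mul]
    ext z
    rcases z with ⟨x | j, y⟩ | r
    · simp only [hh, Perm.mul_apply, aff_inl, gE_grid, rotK_inl, H0, coe_fn_mk, Pi.one_apply, Units.val_one, one_mul, a',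
        Sum.elim_inl, Units.inv_mul_cancel_left, Sum.inl.injEq, Prod.mk.injEq, Sum.inl.injEq]
      constructor
      · ring
      · ring
    · simp only [hh, Perm.mul_apply, aff_inl, gE_block, rotK_inr, Pi.one_apply, Units.val_one, one_mul, a', Sum.elim_inr]
    · simp only [hh, Perm.mul_apply, aff_inr, gE_R, Perm.one_apply]
  rw [h]
  exact ⟨_, rotK_mem _, a', rfl⟩

/-- Every even block permutation is in `Zg` up to a power of `hh`. -/
theorem odd_factor (hp2 : p ≠ 2) (hR : Fintype.card R < 2) (ν : (ZMod p)ˣ) (hν : ∀ x, x ∈ Subgroup.zpowers ν)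
    {g : Perm (Yy p (ZMod p ⊕ J) R)} (hg : g ∈ AG p (ZMod p ⊕ J) R) (hs : sign g = 1) :
    ∃ k : ℕ, g * (hh ν) ^ k ∈ Zg p (ZMod p ⊕ J) R := by
  obtain ⟨σ, d, a, ρ, rfl⟩ := hg
  obtain ⟨k, hk⟩ := (mem_powers_iff_mem_zpowers).2 (hν (∏ i, d i))
  replace hk : ν ^ k = ∏ i, d i := hk
  refine ⟨k, ?_⟩
  have hform : ∀ n : ℕ, ∃ σ' d' a' ρ', (hh ν : Perm (Yy p (ZMod p ⊕ J) R)) ^ n = aff σ' d' a' ρ' ∧ ∏ i, d' i = (ν⁻¹) ^ n := by
    intro n
    induction n with
    | zero => exact ⟨1, 1, 0, 1, by rw [pow_zero, aff_one], by simp⟩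
    | succ n ih =>
      obtain ⟨σ', d', a', ρ', h1, h2⟩ := ih
      refine ⟨σ' * mulK ν, fun i => d' (mulK ν i) * dh ν i, fun i => (d' (mulK ν i) : ZMod p) * (0 : ZMod p ⊕ J → ZMod p) i + a' (mulK ν i),
        ρ' * 1, by rw [pow_succ, h1, hh_eq_aff, aff_mul], ?_⟩
      rw [prod_aff_mul 1 (mulK ν) d' (dh ν), h2, prod_dh, pow_succ]
  obtain ⟨σ', d', a', ρ', h1, h2⟩ := hform k
  have hsh : sign (hh ν : Perm (Yy p (ZMod p ⊕ J) R)) = 1 := by
    have key : ∀ x ∈ Subgroup.closure {x : Perm (Yy p (ZMod p ⊕ J) R) | x ^ p = 1 ∧ ∀ w ∈ R1 p J R, x * w * x⁻¹ ∈ R1 p J R},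
        sign x = 1 := by
      intro x hx
      induction hx using Subgroup.closure_induction with
      | mem z hz => exact sign_of_pow_p hp2 hz.1
      | one => simp
      | mul a b _ _ ha hb => rw [map_mul, ha, hb, one_mul]
      | inv a _ ha => rw [map_inv, ha, inv_one]
    exact key _ (hh_mem ν)
  have hs2 : sign (aff σ d a ρ * hh ν ^ k) = 1 := by
    rw [map_mul, map_pow, hs, hsh]
    simp
  rw [h1, aff_mul] at hs2 ⊢
  have hI : 3 ≤ Fintype.card (ZMod p ⊕ J) := by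
    rw [Fintype.card_sum, ZMod.card]
    have h3 : 3 ≤ p := by
      have := hp.out.two_le
      omega
    omega
  have hIp : p ≤ Fintype.card (ZMod p ⊕ J) := by
    rw [Fintype.card_sum, ZMod.card]
    omega
  apply mem_Zg_of hp2 hIp hI hR hs2
  rw [prod_aff_mul σ σ' d d', h2, ← hk, inv_pow, mul_inv_cancel]

/-! ### Centralizers -/

/-- A permutation commuting with a block translation translates the block. -/
theorem block_fix {I : Type} [Fintype I] [DecidableEq I] {g : Perm (Yy p I R)} {i : I} (hg : g * zi i 1 = zi i 1 * g) :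
    ∃ b, ∀ y, g (.inl (i, y)) = .inl (i, y + b) := by
  have hcomm : ∀ x, g (zi i 1 x) = zi i 1 (g x) := fun x => by
    have := congrArg (fun f : Perm (Yy p I R) => f x) hg
    exact this
  have hm : (zi i 1 : Perm (Yy p I R)) (g (.inl (i, 0))) ≠ g (.inl (i, 0)) := by
    rw [← hcomm]
    intro h'
    have h2 := g.injective h'
    rw [zi_self] at h2
    simp at h2
  obtain ⟨b, hb⟩ := zi_moved hm
  refine ⟨b, ?_⟩
  have hval : ∀ n : ℕ, g (.inl (i, (n : ZMod p))) = .inl (i, (n : ZMod p) + b) := by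
    intro n
    induction n with
    | zero => simpa using hb
    | succ n ih =>
      have h1 : (Sum.inl (i, ((n + 1 : ℕ) : ZMod p)) : Yy p I R) = zi i 1 (.inl (i, (n : ZMod p))) := by
        rw [zi_self]
        simp
      rw [h1, hcomm, ih, zi_self]
      simp only [Nat.cast_add, Nat.cast_one, Sum.inl.injEq, Prod.mk.injEq, true_and]
      ring
  intro y
  have := hval y.val
  rwa [ZMod.natCast_zmod_val] at this

theorem cent_B0 {I : Type} [Fintype I] [DecidableEq I] (hR : Fintype.card R < 2) {g : Perm (Yy p I R)}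
    (hg : ∀ f, g * tv f = tv f * g) : g ∈ B0 p I R := by
  choose b hb using fun i => block_fix (g := g) (i := i) (hg _)
  refine ⟨b, ?_⟩
  have : Subsingleton R := Fintype.card_le_one_iff_subsingleton.1 (by omega)
  ext z
  rcases z with ⟨i, y⟩ | r
  · rw [hb, trans_inl]
  · rw [trans_inr]
    rcases hgr : g (.inr r) with ⟨i, y⟩ | r'
    · exfalso
      have h1 : g (.inl (i, y - b i)) = g (.inr r) := by
        rw [hgr, hb]
        simp
      have h2 := g.injective h1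
      simp at h2
    · rw [Subsingleton.elim r' r]

theorem zi_eq_gT (j : J) : (zi (.inr j) 1 : Perm (Yy p (ZMod p ⊕ J) R)) = gT 0 0 (Pi.single j 1) := by
  ext z
  rcases z with ⟨x | j', y⟩ | r
  · rw [gT_grid, zi_ne (by simp)]
    simp
  · rw [gT_block, zi_inl]
    by_cases h : j' = j
    · subst h
      simp
    · rw [Pi.single_eq_of_ne (by simpa using h), Pi.single_eq_of_ne h]
  · rw [gT_R, zi_inr]

theorem cent_R1 (hR : Fintype.card R < 2) {g : Perm (Yy p (ZMod p ⊕ J) R)} (hg : ∀ w ∈ R1 p J R, g * w = w * g) :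
    g ∈ R1 p J R := by
  have hgT : ∀ k b c z, g (gT k b c z) = gT k b c (g z) := fun k b c z => by
    have := congrArg (fun f : Perm (Yy p (ZMod p ⊕ J) R) => f z) (hg _ ⟨k, b, c, rfl⟩)
    exact this
  choose c hc using fun j => block_fix (g := g) (i := .inr j) (by
    rw [zi_eq_gT]
    exact hg _ ⟨_, _, _, rfl⟩)
  obtain ⟨k₀, b₀, hz₀⟩ : ∃ k₀ b₀, g (.inl (.inl 0, 0)) = .inl (.inl k₀, b₀) := by
    rcases hz : g (.inl (.inl 0, 0)) with ⟨x | j, y⟩ | r
    · exact ⟨x, y, rfl⟩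
    · exfalso
      have h1 := hgT 1 0 0 (.inl (.inl 0, 0))
      rw [hz, gT_block, gT_grid] at h1
      simp only [Pi.zero_apply, add_zero] at h1
      have h2 := g.injective (h1.trans hz.symm)
      simp at h2
    · exfalso
      have h1 := hgT 1 0 0 (.inl (.inl 0, 0))
      rw [hz, gT_R, gT_grid] at h1
      have h2 := g.injective (h1.trans hz.symm)
      simp at h2
  have hgrid : ∀ x y, g (.inl (.inl x, y)) = .inl (.inl (k₀ + x), b₀ + y) := by
    intro x y
    have h1 := hgT x y 0 (.inl (.inl 0, 0))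
    rw [gT_grid, hz₀, gT_grid] at h1
    simpa using h1
  refine ⟨k₀, b₀, c, ?_⟩
  have : Subsingleton R := Fintype.card_le_one_iff_subsingleton.1 (by omega)
  ext z
  rcases z with ⟨x | j, y⟩ | r
  · rw [hgrid, gT_grid, add_comm k₀, add_comm b₀]
  · rw [hc, gT_block]
  · rw [gT_R]
    rcases hgr : g (.inr r) with ⟨x | j, y⟩ | r'
    · exfalso
      have h1 : g (.inl (.inl (x - k₀), y - b₀)) = g (.inr r) := by
        rw [hgr, hgrid]
        simp
      have h2 := g.injective h1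
      simp at h2
    · exfalso
      have h1 : g (.inl (.inr j, y - c j)) = g (.inr r) := by
        rw [hgr, hc]
        simp
      have h2 := g.injective h1
      simp at h2
    · rw [Subsingleton.elim r' r]

end Cfsg.Agent.Lib.AltFusion.OddGrid
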