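import Cfsg.Agent.Lib.AltFusion.NormTwo

/-!
# The subgroup generated by the `p`-elements of the block group (helper20)
-/

set_option autoImplicit false
set_option linter.unusedSectionVars false

open Equiv Equiv.Perm

namespace Cfsg.Agent.Lib.AltFusion.OddZ

open Cfsg.Agent.Lib.AltFusion.Core Cfsg.Agent.Lib.AltFusion.Blocks Cfsg.Agent.Lib.AltFusion.Syl
open Cfsg.Agent.Lib.AltFusion.Closed Cfsg.Agent.Lib.AltFusion.NormTwo

variable {p : ℕ} [hp : Fact p.Prime]

theorem sign_of_pow_p (hp2 : p ≠ 2) {X : Type} [Fintype X] [DecidableEq X] {x : Perm X} (hx : x ^ p = 1) : sign x = 1 := by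
  have hodd : Odd p := hp.out.odd_of_ne_two hp2
  have h1 : sign x ^ p = 1 := by rw [← map_pow, hx, map_one]
  rcases Int.units_eq_one_or (sign x) with h | h
  · exact h
  · rw [h, hodd.neg_one_pow] at h1
    exact absurd h1 (by decide)

variable {I R : Type} [Fintype I] [DecidableEq I] [Fintype R] [DecidableEq R]

variable (p I R) in
/-- The subgroup generated by the elements of order dividing `p` of the block group. -/
def Zg : Subgroup (Perm (Yy p I R)) := Subgroup.closure {x | x ∈ AG p I R ∧ x ^ p = 1}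

theorem sign_Zg (hp2 : p ≠ 2) {z : Perm (Yy p I R)} (hz : z ∈ Zg p I R) : sign z = 1 := by
  induction hz using Subgroup.closure_induction with
  | mem z hz => exact sign_of_pow_p hp2 hz.2
  | one => simp
  | mul a b _ _ ha hb => rw [map_mul, ha, hb, one_mul]
  | inv a _ ha => rw [map_inv, ha, inv_one]

theorem Zg_le_AG : Zg p I R ≤ AG p I R := (Subgroup.closure_le _).2 fun _ h => h.1

theorem tv_mem_Zg (f : I → ZMod p) : (tv f : Perm (Yy p I R)) ∈ Zg p I R :=
  Subgroup.subset_closure ⟨B0_le_AG ⟨f, rfl⟩, trans_pow_p f⟩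

/-- A diagonal element. -/
def D (d : I → (ZMod p)ˣ) : Perm (Yy p I R) := aff 1 d 0 1

theorem D_inl (d : I → (ZMod p)ˣ) (i : I) (y : ZMod p) : (D d : Perm (Yy p I R)) (.inl (i, y)) = .inl (i, (d i : ZMod p) * y) := by
  simp [D]

theorem D_inr (d : I → (ZMod p)ˣ) (r : R) : (D d : Perm (Yy p I R)) (.inr r) = .inr r := by
  simp [D]

theorem D_mul (d d' : I → (ZMod p)ˣ) : (D d * D d' : Perm (Yy p I R)) = D (d * d') := by
  ext x
  rcases x with ⟨i, y⟩ | r
  · simp only [Perm.mul_apply, D_inl, Pi.mul_apply, Units.val_mul, mul_assoc]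
  · simp only [Perm.mul_apply, D_inr]

theorem D_one : (D (1 : I → (ZMod p)ˣ) : Perm (Yy p I R)) = 1 := aff_one

theorem D_inv (d : I → (ZMod p)ˣ) : (D d : Perm (Yy p I R))⁻¹ = D d⁻¹ := by
  rw [inv_eq_iff_mul_eq_one, D_mul, mul_inv_cancel, D_one]

theorem lift_conj_D (c : Perm I) (e : I → (ZMod p)ˣ) :
    (lift c * D e * (lift c)⁻¹ : Perm (Yy p I R)) = D (fun k => e (c⁻¹ k)) := by
  rw [lift_inv]
  ext x
  rcases x with ⟨i, y⟩ | r
  · simp only [Perm.mul_apply, D_inl, lift_inl, pvi]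
  · simp only [Perm.mul_apply, D_inr, lift_inr]

theorem lift_of_pow {c : Perm I} (hc : c ^ p = 1) : (lift c : Perm (Yy p I R)) ∈ Zg p I R :=
  Subgroup.subset_closure ⟨aff_mem _ _ _ _, by rw [lift_pow, hc, lift_one]⟩

theorem conj_mem_Zg {x a : Perm (Yy p I R)} (hx : x ∈ AG p I R) (hx' : x ^ p = 1) (ha : a ∈ AG p I R) :
    a * x * a⁻¹ ∈ Zg p I R :=
  Subgroup.subset_closure ⟨Subgroup.mul_mem _ (Subgroup.mul_mem _ ha hx) (Subgroup.inv_mem _ ha), by
    rw [conj_pow, hx']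
    simp⟩

theorem exists_emb (hp2 : p ≠ 2) (hIp : p ≤ Fintype.card I) {i j l : I} (hij : i ≠ j) (hil : i ≠ l) (hjl : j ≠ l) :
    ∃ ι : ZMod p ↪ I, ι 0 = i ∧ ι 1 = j ∧ ι 2 = l := by
  obtain ⟨ι₀⟩ := Function.Embedding.nonempty_of_card_le (α := ZMod p) (β := I) (by rwa [ZMod.card])
  have h2 : (2 : ZMod p) ≠ 0 := by
    intro h
    have h3 : ((2 : ℕ) : ZMod p) = 0 := by exact_mod_cast h
    rw [ZMod.natCast_eq_zero_iff] at h3
    exact hp2 ((Nat.prime_dvd_prime_iff_eq hp.out Nat.prime_two).1 h3)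
  have h01 : (0 : ZMod p) ≠ 1 := zero_ne_one
  have h02 : (0 : ZMod p) ≠ 2 := h2.symm
  have h12 : (1 : ZMod p) ≠ 2 := by
    intro h
    have : (2 : ZMod p) - 1 = 0 := by rw [← h]; simp
    have e : (2 : ZMod p) - 1 = 1 := by norm_num
    rw [e] at this
    exact one_ne_zero this
  let ι₁ : ZMod p ↪ I := ι₀.trans (swap (ι₀ 0) i).toEmbedding
  have e1 : ι₁ 0 = i := by simp [ι₁]
  let ι₂ : ZMod p ↪ I := ι₁.trans (swap (ι₁ 1) j).toEmbedding
  have e2 : ι₂ 1 = j := by simp [ι₂]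
  have e3 : ι₂ 0 = i := by
    show swap (ι₁ 1) j (ι₁ 0) = i
    rw [e1]
    apply swap_apply_of_ne_of_ne
    · rw [← e1]
      exact fun h => h01 (ι₁.injective h)
    · exact hij
  let ι₃ : ZMod p ↪ I := ι₂.trans (swap (ι₂ 2) l).toEmbedding
  have e4 : ι₃ 2 = l := by simp [ι₃]
  have e5 : ι₃ 0 = i := by
    show swap (ι₂ 2) l (ι₂ 0) = i
    rw [e3]
    apply swap_apply_of_ne_of_ne
    · rw [← e3]
      exact fun h => h02 (ι₂.injective h)
    · exact hil
  have e6 : ι₃ 1 = j := by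
    show swap (ι₂ 2) l (ι₂ 1) = j
    rw [e2]
    apply swap_apply_of_ne_of_ne
    · rw [← e2]
      exact fun h => h12 (ι₂.injective h)
    · exact hjl
  exact ⟨ι₃, e5, e6, e4⟩

theorem add_one_perm_pow (n : ℕ) : (Equiv.addRight (1 : ZMod p)) ^ n = Equiv.addRight (n : ZMod p) := by
  induction n with
  | zero =>
    ext x
    simp
  | succ n ih =>
    rw [pow_succ, ih]
    ext x
    simp [add_assoc, add_comm, add_left_comm]

theorem exists_cyc (hp2 : p ≠ 2) (hIp : p ≤ Fintype.card I) {i j l : I} (hij : i ≠ j) (hil : i ≠ l) (hjl : j ≠ l) :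
    ∃ c : Perm I, c ^ p = 1 ∧ c i = j ∧ c j = l := by
  obtain ⟨ι, rfl, rfl, rfl⟩ := exists_emb hp2 hIp hij hil hjl
  refine ⟨viaEmbeddingHom ι (Equiv.addRight 1), ?_, ?_, ?_⟩
  · rw [← map_pow, add_one_perm_pow, ZMod.natCast_self]
    have : Equiv.addRight (0 : ZMod p) = 1 := by
      ext x
      simp
    rw [this, map_one]
  · rw [viaEmbeddingHom_apply, viaEmbedding_apply]
    simp
  · rw [viaEmbeddingHom_apply, viaEmbedding_apply]
    simp [one_add_one_eq_two]

theorem exists_third (hI : 3 ≤ Fintype.card I) (i j : I) : ∃ l, l ≠ i ∧ l ≠ j := by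
  have : ({i, j} : Finset I).card < (Finset.univ : Finset I).card :=
    lt_of_le_of_lt Finset.card_le_two (by rw [Finset.card_univ]; omega)
  obtain ⟨k, -, hk⟩ := Finset.exists_mem_notMem_of_card_lt_card this
  simp only [Finset.mem_insert, Finset.mem_singleton, not_or] at hk
  exact ⟨k, hk.1, hk.2⟩

theorem D_pair_mem (hp2 : p ≠ 2) (hIp : p ≤ Fintype.card I) (hI : 3 ≤ Fintype.card I) {i j : I} (hij : i ≠ j)
    (lam : (ZMod p)ˣ) : (D (Pi.mulSingle i lam * Pi.mulSingle j lam⁻¹) : Perm (Yy p I R)) ∈ Zg p I R := by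
  obtain ⟨l, hl1, hl2⟩ := exists_third hI i j
  obtain ⟨c, hc, hci, -⟩ := exists_cyc hp2 hIp hij hl1.symm hl2.symm
  have h1 : (D (Pi.mulSingle i lam) : Perm (Yy p I R)) * lift c * (D (Pi.mulSingle i lam))⁻¹ ∈ Zg p I R :=
    conj_mem_Zg (aff_mem _ _ _ _) (by rw [lift_pow, hc, lift_one]) (aff_mem _ _ _ _)
  have h2 : (lift c : Perm (Yy p I R))⁻¹ ∈ Zg p I R := Subgroup.inv_mem _ (lift_of_pow hc)
  have h3 := Subgroup.mul_mem _ h1 h2
  have e : (D (Pi.mulSingle i lam) : Perm (Yy p I R)) * lift c * (D (Pi.mulSingle i lam))⁻¹ * (lift c)⁻¹ =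
      D (Pi.mulSingle i lam) * (lift c * D (Pi.mulSingle i lam)⁻¹ * (lift c)⁻¹) := by
    rw [D_inv]
    group
  rw [e, lift_conj_D, D_mul] at h3
  convert h3 using 2
  congr 1
  funext k
  by_cases hk : k = j
  · subst hk
    have : c⁻¹ k = i := by
      rw [← hci, piv]
    simp [this]
  · have : c⁻¹ k ≠ i := by
      intro h
      apply hk
      rw [← hci, ← h, pvi]
    show (Pi.mulSingle j lam⁻¹ : I → (ZMod p)ˣ) k = ((Pi.mulSingle i lam)⁻¹ : I → (ZMod p)ˣ) (c⁻¹ k)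
    rw [Pi.mulSingle_eq_of_ne hk, Pi.inv_apply, Pi.mulSingle_eq_of_ne this, inv_one]

theorem D_mem (hp2 : p ≠ 2) (hIp : p ≤ Fintype.card I) (hI : 3 ≤ Fintype.card I) (d : I → (ZMod p)ˣ) (hd : ∏ i, d i = 1) :
    (D d : Perm (Yy p I R)) ∈ Zg p I R := by
  obtain ⟨i₀⟩ : Nonempty I := Fintype.card_pos_iff.1 (by omega)
  let W : Subgroup (I → (ZMod p)ˣ) :=
    { carrier := {e | (D e : Perm (Yy p I R)) ∈ Zg p I R}
      mul_mem' := fun {a b} ha hb => by
        show D (a * b) ∈ Zg p I R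
        rw [← D_mul]
        exact Subgroup.mul_mem _ ha hb
      one_mem' := by
        show D 1 ∈ Zg p I R
        rw [D_one]
        exact Subgroup.one_mem _
      inv_mem' := fun {a} ha => by
        show D a⁻¹ ∈ Zg p I R
        rw [← D_inv]
        exact Subgroup.inv_mem _ ha }
  have h1 : ∀ i, (Pi.mulSingle i (d i) * Pi.mulSingle i₀ (d i)⁻¹ : I → (ZMod p)ˣ) ∈ W := by
    intro i
    by_cases hi : i = i₀
    · subst hi
      have : (Pi.mulSingle i (d i) * Pi.mulSingle i (d i)⁻¹ : I → (ZMod p)ˣ) = 1 := by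
        funext k
        by_cases hk : k = i
        · subst hk
          simp
        · simp [Pi.mulSingle_eq_of_ne hk]
      rw [this]
      exact W.one_mem
    · exact D_pair_mem hp2 hIp hI hi _
  have h2 : (∏ i, (Pi.mulSingle i (d i) * Pi.mulSingle i₀ (d i)⁻¹ : I → (ZMod p)ˣ)) ∈ W :=
    Subgroup.prod_mem _ fun i _ => h1 i
  have h3 : (∏ i, (Pi.mulSingle i (d i) * Pi.mulSingle i₀ (d i)⁻¹ : I → (ZMod p)ˣ)) = d := by
    rw [Finset.prod_mul_distrib, Finset.univ_prod_mulSingle]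
    have h4 : (∏ i, (Pi.mulSingle i₀ (d i)⁻¹ : I → (ZMod p)ˣ)) = 1 := by
      funext k
      rw [Finset.prod_apply]
      by_cases hk : k = i₀
      · subst hk
        simp only [Pi.mulSingle_eq_same, Pi.one_apply, Finset.prod_inv_distrib, hd, inv_one]
      · simp [Pi.mulSingle_eq_of_ne hk]
    rw [h4, mul_one]
  rw [h3] at h2
  exact h2

theorem lift_three (hp2 : p ≠ 2) (hIp : p ≤ Fintype.card I) (hI : 3 ≤ Fintype.card I) {σ : Perm I} (hσ : σ.IsThreeCycle) :
    (lift σ : Perm (Yy p I R)) ∈ Zg p I R := by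
  -- three distinct points
  obtain ⟨a, b, c, hab, hac, hbc⟩ : ∃ a b c : I, a ≠ b ∧ a ≠ c ∧ b ≠ c := by
    obtain ⟨a⟩ : Nonempty I := Fintype.card_pos_iff.1 (by omega)
    obtain ⟨b, hb⟩ : ∃ b, b ≠ a := (exists_third hI a a).imp fun _ h => h.1
    obtain ⟨c, hc1, hc2⟩ := exists_third hI a b
    exact ⟨a, b, c, hb.symm, hc1.symm, hc2.symm⟩
  have h3 : (swap a b * swap a c).IsThreeCycle := isThreeCycle_swap_mul_swap_same hab hac hbc
  obtain ⟨κ, hκ⟩ := isConj_iff.1 (isConj_iff_cycleType_eq.2 (h3.cycleType.trans hσ.cycleType.symm))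
  have hσe : σ = swap (κ b) (κ a) * swap (κ a) (κ c) := by
    rw [← hκ, swap_comm (κ b), swap_apply_apply, swap_apply_apply]
    group
  obtain ⟨c', hc', hc1, hc2⟩ := exists_cyc hp2 hIp (i := κ b) (j := κ a) (l := κ c)
    (fun h => hab (κ.injective h).symm) (fun h => hbc (κ.injective h)) (fun h => hac (κ.injective h))
  let τ : Perm I := swap (κ b) (κ a)
  have hτinv : τ⁻¹ = τ := swap_inv _ _
  have e : σ = (τ * c' * τ⁻¹) * c'⁻¹ := by
    have e2 : c' * τ * c'⁻¹ = swap (κ a) (κ c) := by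
      show c' * swap (κ b) (κ a) * c'⁻¹ = _
      rw [← swap_apply_apply, hc1, hc2]
    rw [hσe]
    show τ * swap (κ a) (κ c) = _
    rw [← e2, hτinv]
    group
  have h1 : (lift (τ * c' * τ⁻¹) : Perm (Yy p I R)) ∈ Zg p I R := by
    rw [← lift_mul, ← lift_mul, ← lift_inv]
    exact conj_mem_Zg (aff_mem _ _ _ _) (by rw [lift_pow, hc', lift_one]) (aff_mem _ _ _ _)
  have h2 : (lift c'⁻¹ : Perm (Yy p I R)) ∈ Zg p I R := by
    rw [← lift_inv]
    exact Subgroup.inv_mem _ (lift_of_pow hc')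
  rw [e, ← lift_mul]
  exact Subgroup.mul_mem _ h1 h2

theorem lift_even (hp2 : p ≠ 2) (hIp : p ≤ Fintype.card I) (hI : 3 ≤ Fintype.card I) {σ : Perm I} (hσ : sign σ = 1) :
    (lift σ : Perm (Yy p I R)) ∈ Zg p I R := by
  have key : ∀ σ ∈ Subgroup.closure {σ : Perm I | σ.IsThreeCycle}, (lift σ : Perm (Yy p I R)) ∈ Zg p I R := by
    intro σ h1
    induction h1 using Subgroup.closure_induction with
    | mem σ h => exact lift_three hp2 hIp hI h
    | one =>
      rw [lift_one]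
      exact Subgroup.one_mem _
    | mul a b _ _ ha hb =>
      rw [← lift_mul]
      exact Subgroup.mul_mem _ ha hb
    | inv a _ ha =>
      rw [← lift_inv]
      exact Subgroup.inv_mem _ ha
  apply key
  rw [Equiv.Perm.closure_three_cycles_eq_alternating]
  exact Equiv.Perm.mem_alternatingGroup.2 hσ

/-- Decomposition of a block permutation. -/
theorem aff_decomp (σ : Perm I) (d : I → (ZMod p)ˣ) (a : I → ZMod p) :
    (aff σ d a 1 : Perm (Yy p I R)) = tv (fun k => a (σ⁻¹ k)) * D (fun k => d (σ⁻¹ k)) * lift σ := by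
  ext x
  rcases x with ⟨i, y⟩ | r
  · simp only [Perm.mul_apply, aff_inl, lift_inl, D_inl, trans_inl, piv]
  · simp only [Perm.mul_apply, aff_inr, lift_inr, D_inr, trans_inr, Perm.one_apply]

/-- The even block permutations with multiplier product one lie in `Zg`. -/
theorem mem_Zg_of (hp2 : p ≠ 2) (hIp : p ≤ Fintype.card I) (hI : 3 ≤ Fintype.card I) (hR : Fintype.card R < 2)
    {σ : Perm I} {d : I → (ZMod p)ˣ} {a : I → ZMod p} {ρ : Perm R} (hs : sign (aff σ d a ρ) = 1) (hd : ∏ i, d i = 1) :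
    aff σ d a ρ ∈ Zg p I R := by
  have hρ : ρ = 1 := perm_eq_one_of_card hR ρ
  subst hρ
  have hd' : ∏ k, d (σ⁻¹ k) = 1 := by
    rw [Equiv.prod_comp σ⁻¹ d]
    exact hd
  have h1 := tv_mem_Zg (p := p) (R := R) (fun k => a (σ⁻¹ k))
  have h2 := D_mem (R := R) hp2 hIp hI (fun k => d (σ⁻¹ k)) hd'
  rw [aff_decomp] at hs ⊢
  have hs1 := sign_Zg hp2 h1
  have hs2 := sign_Zg hp2 h2
  rw [map_mul, map_mul, hs1, hs2, one_mul, one_mul, sign_lift] at hs
  have hσ : sign σ = 1 := by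
    have hodd : Odd p := hp.out.odd_of_ne_two hp2
    rcases Int.units_eq_one_or (sign σ) with h | h
    · exact h
    · rw [h, hodd.neg_one_pow] at hs
      exact absurd hs (by decide)
  exact Subgroup.mul_mem _ (Subgroup.mul_mem _ h1 h2) (lift_even hp2 hIp hI hσ)

/-- The product of the multipliers. -/
theorem prod_aff_mul (σ σ' : Perm I) (d d' : I → (ZMod p)ˣ) :
    ∏ i, (d (σ' i) * d' i) = (∏ i, d i) * ∏ i, d' i := by
  rw [Finset.prod_mul_distrib, Equiv.prod_comp σ' d]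

end Cfsg.Agent.Lib.AltFusion.OddZ
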