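import Cfsg.Agent.Lib.AltFusion.Blocks

/-!
# Sylow subgroups of symmetric groups in block coordinates (helper20)
-/

set_option autoImplicit false
set_option linter.unusedSectionVars false

open Equiv Equiv.Perm

namespace Cfsg.Agent.Lib.AltFusion.Syl

open Cfsg.Agent.Lib.AltFusion.Core Cfsg.Agent.Lib.AltFusion.Blocks

section lift

variable {p : ℕ} [hp : Fact p.Prime] {I : Type} {R : Type} [Fintype I] [DecidableEq I] [Fintype R] [DecidableEq R]

/-- The permutation moving the blocks rigidly. -/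
def lift (σ : Perm I) : Perm (Yy p I R) := aff σ 1 0 1

theorem lift_mul (σ τ : Perm I) : (lift σ * lift τ : Perm (Yy p I R)) = lift (σ * τ) := by
  ext x
  rcases x with ⟨i, y⟩ | r
  · simp [lift, aff_mul]
  · simp [lift, aff_mul]

theorem lift_one : (lift (1 : Perm I) : Perm (Yy p I R)) = 1 := aff_one

theorem lift_pow (σ : Perm I) (n : ℕ) : (lift σ : Perm (Yy p I R)) ^ n = lift (σ ^ n) := by
  induction n with
  | zero => rw [pow_zero, pow_zero, lift_one]
  | succ n ih => rw [pow_succ, pow_succ, ih, lift_mul]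

theorem lift_inv (σ : Perm I) : (lift σ : Perm (Yy p I R))⁻¹ = lift σ⁻¹ := by
  rw [inv_eq_iff_mul_eq_one, lift_mul, mul_inv_cancel, lift_one]

theorem lift_inl (σ : Perm I) (i : I) (y : ZMod p) : (lift σ : Perm (Yy p I R)) (.inl (i, y)) = .inl (σ i, y) := by
  simp [lift]

theorem lift_inr (σ : Perm I) (r : R) : (lift σ : Perm (Yy p I R)) (.inr r) = .inr r := by
  simp [lift]

theorem sign_lift (σ : Perm I) : sign (lift σ : Perm (Yy p I R)) = (sign σ) ^ p := by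
  have e : (lift σ : Perm (Yy p I R)) =
      Equiv.Perm.sumCongr (Equiv.prodCongrLeft (fun _ : ZMod p => σ)) (1 : Perm R) := by
    ext x
    rcases x with ⟨i, y⟩ | r
    · rw [lift_inl]
      rfl
    · rw [lift_inr]
      rfl
  rw [e, Equiv.Perm.sign_sumCongr, Equiv.Perm.sign_one, mul_one, Equiv.Perm.sign_prodCongrLeft, Finset.prod_const,
    Finset.card_univ, ZMod.card]

theorem tv_pgroup : IsPGroup p (B0 p I R) := by
  rintro ⟨_, f, rfl⟩
  refine ⟨1, Subtype.ext ?_⟩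
  simp only [pow_one]
  exact trans_pow_p f

/-- The subgroup above a subgroup of the permutations of blocks. -/
def Qg (H : Subgroup (Perm I)) : Subgroup (Perm (Yy p I R)) where
  carrier := {g | ∃ σ ∈ H, ∃ a, g = aff σ 1 a 1}
  mul_mem' := by
    rintro _ _ ⟨σ, hσ, a, rfl⟩ ⟨σ', hσ', a', rfl⟩
    refine ⟨σ * σ', H.mul_mem hσ hσ', fun i => a' i + a (σ' i), ?_⟩
    rw [aff_mul]
    congr 1
    · funext i
      simp
    · funext i
      simp
  one_mem' := ⟨1, H.one_mem, 0, aff_one.symm⟩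
  inv_mem' := by
    rintro _ ⟨σ, hσ, a, rfl⟩
    refine ⟨σ⁻¹, H.inv_mem hσ, fun i => - a (σ⁻¹ i), ?_⟩
    rw [aff_inv]
    congr 1
    · funext i
      simp

theorem B0_le_Qg (H : Subgroup (Perm I)) : B0 p I R ≤ Qg H := by
  rintro _ ⟨f, rfl⟩
  exact ⟨1, H.one_mem, f, rfl⟩

theorem lift_mem_Qg {H : Subgroup (Perm I)} {σ : Perm I} (hσ : σ ∈ H) : (lift σ : Perm (Yy p I R)) ∈ Qg H :=
  ⟨σ, hσ, 0, rfl⟩

theorem Qg_pgroup {H : Subgroup (Perm I)} (hH : IsPGroup p H) : IsPGroup p (Qg H : Subgroup (Perm (Yy p I R))) := by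
  rintro ⟨_, σ, hσ, a, rfl⟩
  obtain ⟨k, hk⟩ := hH ⟨σ, hσ⟩
  have hk' : σ ^ p ^ k = 1 := congrArg Subtype.val hk
  have hpow : ∀ n : ℕ, ∃ a', (aff σ 1 a 1 : Perm (Yy p I R)) ^ n = aff (σ ^ n) 1 a' 1 := by
    intro n
    induction n with
    | zero => exact ⟨0, by simp [aff_one]⟩
    | succ n ih =>
      obtain ⟨a', ha'⟩ := ih
      refine ⟨fun i => a i + a' (σ i), ?_⟩
      rw [pow_succ, ha', aff_mul, pow_succ]
      congr 1
      · funext i
        simp
      · funext i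
        simp
  obtain ⟨a', ha'⟩ := hpow (p ^ k)
  refine ⟨k + 1, Subtype.ext ?_⟩
  show (aff σ 1 a 1 : Perm (Yy p I R)) ^ p ^ (k + 1) = 1
  rw [pow_succ, pow_mul, ha', hk']
  exact trans_pow_p a'

end lift

section isSyl

variable (p : ℕ) {X : Type} [Fintype X]

/-- `P` has the order of a Sylow `p`-subgroup of the symmetric group. -/
def IsSyl (P : Subgroup (Perm X)) : Prop :=
  Nat.card P = p ^ ((Fintype.card X).factorial).factorization p

variable {p}

section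
variable [DecidableEq X] [hp : Fact p.Prime] {P : Subgroup (Perm X)}

theorem IsSyl.card_eq (h : IsSyl p P) : Nat.card P = p ^ (Nat.card (Perm X)).factorization p := by
  rw [Nat.card_eq_fintype_card (α := Perm X), Fintype.card_perm]
  exact h

theorem IsSyl.pgroup (h : IsSyl p P) : IsPGroup p P := IsPGroup.of_card h

theorem IsSyl.map {Y : Type} [Fintype Y] [DecidableEq Y] (h : IsSyl p P) (e : X ≃ Y) :
    IsSyl p (P.map (e.permCongrHom.toMonoidHom)) := by
  unfold IsSyl at h ⊢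
  rw [Subgroup.card_map_of_injective e.permCongrHom.injective, h, Fintype.card_congr e]

/-- A `p`-subgroup lies in some conjugate in any coordinates. -/
theorem exists_std {Y : Type} [Fintype Y] [DecidableEq Y] (h : IsSyl p P) (hXY : Fintype.card X = Fintype.card Y)
    {A : Subgroup (Perm Y)} (hA : IsPGroup p A) : ∃ e : X ≃ Y, A ≤ P.map (e.permCongrHom.toMonoidHom) := by
  let e₀ : X ≃ Y := Fintype.equivOfCardEq hXY
  have h₀ := h.map e₀
  let S₀ : Sylow p (Perm Y) := Sylow.ofCard _ h₀.card_eq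
  obtain ⟨Q, hQ⟩ := hA.exists_le_sylow
  obtain ⟨κ, hκ⟩ := MulAction.exists_smul_eq (Perm Y) S₀ Q
  refine ⟨e₀.trans κ, fun x hx => ?_⟩
  have h1 : x ∈ (Q : Subgroup (Perm Y)) := hQ hx
  rw [← hκ, Sylow.coe_subgroup_smul, Subgroup.mem_pointwise_smul_iff_inv_smul_mem] at h1
  have h2 : ((MulAut.conj κ)⁻¹ x : Perm Y) ∈ P.map (e₀.permCongrHom.toMonoidHom) := h1
  obtain ⟨z, hz, hzx⟩ := h2
  refine ⟨z, hz, ?_⟩
  have h3 : e₀.permCongr z = κ⁻¹ * x * κ := by
    have : ((MulAut.conj κ)⁻¹ x : Perm Y) = κ⁻¹ * x * κ := by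
      rw [MulAut.conj_inv_apply]
    rw [← this]
    exact hzx
  ext y
  show κ (e₀.permCongr z (κ⁻¹ y)) = x y
  rw [h3]
  simp only [Perm.mul_apply]
  rw [pvi, pvi]

end

end isSyl

section barr

variable {p : ℕ} [hp : Fact p.Prime] {I : Type} {R : Type} [Fintype I] [DecidableEq I] [Fintype R] [DecidableEq R]

/-- The permutations of blocks induced by `P`. -/
noncomputable def barr (P : Subgroup (Perm (Yy p I R))) : Subgroup (Perm I) := (P.subgroupOf (AG p I R)).map piAG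

theorem mem_barr {P : Subgroup (Perm (Yy p I R))} (hPAG : P ≤ AG p I R) {σ : Perm I} :
    σ ∈ barr P ↔ ∃ d a ρ, aff σ d a ρ ∈ P := by
  constructor
  · rintro ⟨g, hg, rfl⟩
    obtain ⟨d, a, ρ, h⟩ := exists_form g
    exact ⟨d, a, ρ, h ▸ hg⟩
  · rintro ⟨d, a, ρ, h⟩
    exact ⟨⟨aff σ d a ρ, aff_mem _ _ _ _⟩, h, piAG_aff _ _ _ _⟩

theorem card_Yy : Fintype.card (Yy p I R) = p * Fintype.card I + Fintype.card R := by
  rw [Fintype.card_sum, Fintype.card_prod, ZMod.card, mul_comm]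

theorem card_eq_mul (hR : Fintype.card R < p) {P : Subgroup (Perm (Yy p I R))} (hP : IsPGroup p P) (hB : B0 p I R ≤ P) :
    Nat.card P = p ^ Fintype.card I * Nat.card (barr P) := by
  have hPAG := le_AG hR hP hB
  let φ : P →* Perm I := piAG.comp (Subgroup.inclusion hPAG)
  have hrange : Nat.card φ.range = Nat.card (barr P) := by
    congr 2
    ext σ
    constructor
    · rintro ⟨x, rfl⟩
      exact ⟨Subgroup.inclusion hPAG x, x.2, rfl⟩
    · rintro ⟨g, hg, rfl⟩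
      exact ⟨⟨g, hg⟩, rfl⟩
  have hker : Nat.card φ.ker = p ^ Fintype.card I := by
    rw [← card_B0 (p := p) (I := I) (R := R)]
    refine Nat.card_congr (Equiv.ofBijective
      (fun x : φ.ker => (⟨(x : P), ?_⟩ : B0 p I R)) ⟨?_, ?_⟩).symm.symm
    · have hx : φ (x : P) = 1 := x.2
      obtain ⟨d, a, ρ, h⟩ := exists_form (Subgroup.inclusion hPAG (x : P))
      have h1 : piAG (Subgroup.inclusion hPAG (x : P)) = 1 := hx
      rw [h1] at h
      have h2 : ((x : P) : Perm (Yy p I R)) = aff 1 d a ρ := h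
      obtain ⟨k, hk⟩ := hP (x : P)
      have hk' : ((x : P) : Perm (Yy p I R)) ^ p ^ k = 1 := congrArg Subtype.val hk
      rw [h2] at hk' ⊢
      rw [pel hR hk']
      exact ⟨_, rfl⟩
    · intro x y hxy
      have h : ((x : P) : Perm (Yy p I R)) = ((y : P) : Perm (Yy p I R)) :=
        congrArg (fun z : B0 p I R => (z : Perm (Yy p I R))) hxy
      exact Subtype.ext (Subtype.ext h)
    · rintro ⟨_, f, rfl⟩
      refine ⟨⟨⟨tv f, hB ⟨f, rfl⟩⟩, ?_⟩, rfl⟩
      show piAG ⟨aff 1 1 f 1, _⟩ = 1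
      exact piAG_aff _ _ _ _
  have h1 := Subgroup.card_mul_index φ.ker
  rw [Subgroup.index_ker, hker, hrange] at h1
  exact h1.symm

theorem isSyl_barr (hR : Fintype.card R < p) {P : Subgroup (Perm (Yy p I R))} (hP : IsSyl p P) (hB : B0 p I R ≤ P) :
    IsSyl p (barr P) := by
  have h1 := card_eq_mul hR hP.pgroup hB
  have h2 : Nat.card P = p ^ ((Fintype.card (Yy p I R)).factorial).factorization p := hP
  unfold IsSyl
  rw [card_Yy, Nat.factorization_def _ hp.out, padicValNat_factorial_mul_add _ hR, padicValNat_factorial_mul,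
    pow_add, ← Nat.factorization_def _ hp.out, mul_comm] at h2
  rw [h1] at h2
  exact Nat.eq_of_mul_eq_mul_left (pow_pos hp.out.pos _) h2

end barr

section conjInto

variable {G : Type*} [Group G] [Finite G] {p : ℕ} [hp : Fact p.Prime]

/-- Conjugation of `p`-subgroups inside a subgroup, when one of them is Sylow in it. -/
theorem conj_into {H U V : Subgroup G} (hUH : U ≤ H) (hVH : V ≤ H) (hU : IsPGroup p U) (hV : IsPGroup p V)
    (hmax : ∀ Q : Subgroup G, Q ≤ H → IsPGroup p Q → U ≤ Q → Q ≤ U) :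
    ∃ κ ∈ H, ∀ v ∈ V, κ * v * κ⁻¹ ∈ U := by
  have hU' : IsPGroup p (U.subgroupOf H) := by
    rintro ⟨x, hx⟩
    obtain ⟨k, hk⟩ := hU ⟨x, hx⟩
    have hk' : (x : G) ^ p ^ k = 1 := congrArg Subtype.val hk
    exact ⟨k, Subtype.ext (Subtype.ext hk')⟩
  have hV' : IsPGroup p (V.subgroupOf H) := by
    rintro ⟨x, hx⟩
    obtain ⟨k, hk⟩ := hV ⟨x, hx⟩
    have hk' : (x : G) ^ p ^ k = 1 := congrArg Subtype.val hk
    exact ⟨k, Subtype.ext (Subtype.ext hk')⟩
  obtain ⟨S₁, hS₁⟩ := hU'.exists_le_sylow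
  obtain ⟨S₂, hS₂⟩ := hV'.exists_le_sylow
  obtain ⟨κ, hκ⟩ := MulAction.exists_smul_eq H S₂ S₁
  refine ⟨κ, κ.2, fun v hv => ?_⟩
  have h1 : (⟨v, hVH hv⟩ : H) ∈ (S₂ : Subgroup H) := hS₂ hv
  have h2 : κ * ⟨v, hVH hv⟩ * κ⁻¹ ∈ (S₁ : Subgroup H) := by
    rw [← hκ, Sylow.coe_subgroup_smul]
    exact ⟨_, h1, by simp [MulAut.conj_apply]⟩
  -- `S₁` maps to a `p`-subgroup of `H` containing `U`
  have h3 : ((S₁ : Subgroup H).map H.subtype) ≤ U := by
    apply hmax
    · rintro _ ⟨x, -, rfl⟩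
      exact x.2
    · rintro ⟨_, x, hx, rfl⟩
      obtain ⟨k, hk⟩ := S₁.isPGroup' ⟨x, hx⟩
      exact ⟨k, Subtype.ext (congrArg (fun z : (S₁ : Subgroup H) => (((z : H)) : G)) hk)⟩
    · intro u hu
      exact ⟨⟨u, hUH hu⟩, hS₁ hu, rfl⟩
  exact h3 ⟨_, h2, rfl⟩

end conjInto

section lifts

variable {p : ℕ} [hp : Fact p.Prime] {I : Type} {R : Type} [Fintype I] [DecidableEq I] [Fintype R] [DecidableEq R]

theorem isP_zpowers {G : Type*} [Group G] [Finite G] {g : G} {k : ℕ} (h : g ^ p ^ k = 1) :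
    IsPGroup p (Subgroup.zpowers g) := by
  rintro ⟨x, hx⟩
  obtain ⟨m, rfl⟩ := Subgroup.mem_zpowers_iff.1 hx
  refine ⟨k, Subtype.ext ?_⟩
  show (g ^ m) ^ p ^ k = 1
  rw [← zpow_natCast, zpow_comm, zpow_natCast, h, one_zpow]

/-- Good lift of an element of `barr P`: a conjugate of the rigid lift lies in `P`. -/
theorem good_lift (hR : Fintype.card R < p) {P : Subgroup (Perm (Yy p I R))} (hP : IsPGroup p P) (hB : B0 p I R ≤ P)
    {σ : Perm I} (hσ : σ ∈ barr P) :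
    ∃ κ ∈ AG p I R, κ * lift σ * κ⁻¹ ∈ P ∧ ∃ d a ρ, κ * lift σ * κ⁻¹ = aff σ d a ρ := by
  have hPAG := le_AG hR hP hB
  obtain ⟨d₀, a₀, ρ₀, hg₀⟩ := (mem_barr hPAG).1 hσ
  let H : Subgroup (Perm (Yy p I R)) := ((Subgroup.zpowers σ).comap piAG).map (AG p I R).subtype
  have hmemH : ∀ {g} (hg : g ∈ AG p I R), g ∈ H ↔ piAG ⟨g, hg⟩ ∈ Subgroup.zpowers σ := by
    intro g hg
    constructor
    · rintro ⟨x, hx, rfl⟩
      exact hx
    · intro h
      exact ⟨⟨g, hg⟩, h, rfl⟩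
  have hHAG : H ≤ AG p I R := by
    rintro _ ⟨x, -, rfl⟩
    exact x.2
  have hliftAG : (lift σ : Perm (Yy p I R)) ∈ AG p I R := aff_mem _ _ _ _
  have hlift : (lift σ : Perm (Yy p I R)) ∈ H := by
    rw [hmemH hliftAG]
    have : piAG ⟨lift σ, hliftAG⟩ = σ := piAG_aff (R := R) (p := p) σ 1 0 1
    rw [this]
    exact Subgroup.mem_zpowers σ
  have hg₀H : aff σ d₀ a₀ ρ₀ ∈ H := by
    rw [hmemH (aff_mem _ _ _ _), piAG_aff]
    exact Subgroup.mem_zpowers σ
  -- `σ` is a `p`-element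
  obtain ⟨k, hk⟩ := hP ⟨_, hg₀⟩
  have hk' : (aff σ d₀ a₀ ρ₀) ^ p ^ k = 1 := congrArg Subtype.val hk
  have hσk : σ ^ p ^ k = 1 := by
    have h1 : (⟨aff σ d₀ a₀ ρ₀, aff_mem _ _ _ _⟩ : AG p I R) ^ p ^ k = 1 := Subtype.ext hk'
    have h2 := congrArg piAG h1
    rw [map_pow, piAG_aff, map_one] at h2
    exact h2
  have hliftk : (lift σ : Perm (Yy p I R)) ^ p ^ k = 1 := by
    rw [lift_pow, hσk, lift_one]
  have hU : IsPGroup p (P ⊓ H : Subgroup (Perm (Yy p I R))) := hP.to_le inf_le_left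
  obtain ⟨κ, hκH, hκ⟩ := conj_into (H := H) (U := P ⊓ H) (V := Subgroup.zpowers (lift σ)) inf_le_right
    ((Subgroup.zpowers_le).2 hlift) hU (isP_zpowers hliftk) (by
      intro Q hQH hQp hUQ g hgQ
      have hgAG := hHAG (hQH hgQ)
      obtain ⟨m, hm⟩ := Subgroup.mem_zpowers_iff.1 ((hmemH hgAG).1 (hQH hgQ))
      have hg₀P : (aff σ d₀ a₀ ρ₀) ^ m ∈ P ⊓ H :=
        (P ⊓ H).zpow_mem (Subgroup.mem_inf.2 ⟨hg₀, hg₀H⟩) m
      have hg₀AG : (aff σ d₀ a₀ ρ₀) ^ m ∈ AG p I R := Subgroup.zpow_mem _ (aff_mem _ _ _ _) m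
      let w : Perm (Yy p I R) := ((aff σ d₀ a₀ ρ₀) ^ m)⁻¹ * g
      have hwQ : w ∈ Q := Q.mul_mem (Q.inv_mem (hUQ hg₀P)) hgQ
      have hwAG : w ∈ AG p I R := Subgroup.mul_mem _ (Subgroup.inv_mem _ hg₀AG) hgAG
      have hπ : piAG ⟨w, hwAG⟩ = 1 := by
        have e : (⟨w, hwAG⟩ : AG p I R) =
            (((⟨aff σ d₀ a₀ ρ₀, aff_mem _ _ _ _⟩ : AG p I R)) ^ m)⁻¹ * ⟨g, hgAG⟩ := rfl
        rw [e, map_mul, map_inv, map_zpow, piAG_aff, ← hm, inv_mul_cancel]
      obtain ⟨d, a, ρ, hw⟩ := exists_form (⟨w, hwAG⟩ : AG p I R)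
      rw [hπ] at hw
      have hw' : w = aff 1 d a ρ := hw
      obtain ⟨k', hk'⟩ := hQp ⟨w, hwQ⟩
      have hk'' : w ^ p ^ k' = 1 := congrArg Subtype.val hk'
      have hwB : w ∈ B0 p I R := by
        rw [hw'] at hk'' ⊢
        rw [pel hR hk'']
        exact ⟨_, rfl⟩
      have hwP : w ∈ P := hB hwB
      have e : g = (aff σ d₀ a₀ ρ₀) ^ m * w := by
        show g = _ * (_⁻¹ * g)
        group
      rw [e]
      refine (P ⊓ H).mul_mem hg₀P (Subgroup.mem_inf.2 ⟨hwP, ?_⟩)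
      rw [hmemH hwAG, hπ]
      exact Subgroup.one_mem _)
  have hκ1 := hκ _ (Subgroup.mem_zpowers (lift σ))
  have hκAG := hHAG hκH
  have hw₁AG : κ * lift σ * κ⁻¹ ∈ AG p I R := Subgroup.mul_mem _ (Subgroup.mul_mem _ hκAG hliftAG) (Subgroup.inv_mem _ hκAG)
  refine ⟨κ, hκAG, hκ1.1, ?_⟩
  obtain ⟨d, a, ρ, hw⟩ := exists_form (⟨_, hw₁AG⟩ : AG p I R)
  have hπ : piAG (⟨_, hw₁AG⟩ : AG p I R) = σ := by
    have e : (⟨_, hw₁AG⟩ : AG p I R) = ⟨κ, hκAG⟩ * ⟨lift σ, hliftAG⟩ * (⟨κ, hκAG⟩ : AG p I R)⁻¹ := rfl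
    rw [e, map_mul, map_mul, map_inv]
    have h1 : piAG ⟨lift σ, hliftAG⟩ = σ := piAG_aff (R := R) (p := p) σ 1 0 1
    rw [h1]
    obtain ⟨m, hm⟩ := Subgroup.mem_zpowers_iff.1 ((hmemH hκAG).1 hκH)
    rw [← hm]
    rw [(show Commute (σ ^ m) σ from (Commute.refl σ).zpow_left m).eq, mul_inv_cancel_right]
  rw [hπ] at hw
  exact ⟨d, a, ρ, hw⟩

/-- Elements of order dividing `p` in `barr P` lift to even elements of `P` of order dividing `p`. -/
theorem step (hR : Fintype.card R < p) {P : Subgroup (Perm (Yy p I R))} (hP : IsPGroup p P) (hB : B0 p I R ≤ P)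
    (ih : ∀ σ ∈ barr P, σ ∈ Subgroup.closure {τ : Perm I | τ ∈ barr P ∧ τ ^ p = 1}) :
    ∀ x ∈ P, ∃ c ∈ Subgroup.closure {z : Perm (Yy p I R) | z ∈ P ∧ z ^ p = 1 ∧ sign z = 1}, ∃ f, x = c * tv f := by
  have hPAG := le_AG hR hP hB
  have hclP : Subgroup.closure {z : Perm (Yy p I R) | z ∈ P ∧ z ^ p = 1 ∧ sign z = 1} ≤ P :=
    (Subgroup.closure_le _).2 fun z hz => hz.1
  have key : ∀ σ ∈ Subgroup.closure {τ : Perm I | τ ∈ barr P ∧ τ ^ p = 1},
      ∃ c ∈ Subgroup.closure {z : Perm (Yy p I R) | z ∈ P ∧ z ^ p = 1 ∧ sign z = 1},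
        ∃ d a ρ, c = aff σ d a ρ := by
    intro σ hσ
    induction hσ using Subgroup.closure_induction with
    | mem σ hσ =>
      obtain ⟨κ, hκ, hw, d, a, ρ, hwe⟩ := good_lift hR hP hB hσ.1
      refine ⟨_, Subgroup.subset_closure ⟨hw, ?_, ?_⟩, d, a, ρ, hwe⟩
      · rw [conj_pow, lift_pow, hσ.2, lift_one]
        simp
      · have h1 : sign (lift σ : Perm (Yy p I R)) = 1 := by
          rw [sign_lift, ← map_pow, hσ.2, map_one]
        simp [h1]
    | one => exact ⟨1, Subgroup.one_mem _, 1, 0, 1, aff_one.symm⟩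
    | mul a b _ _ ha hb =>
      obtain ⟨c, hc, d, e, ρ, rfl⟩ := ha
      obtain ⟨c', hc', d', e', ρ', rfl⟩ := hb
      exact ⟨_, Subgroup.mul_mem _ hc hc', _, _, _, aff_mul _ _ _ _ _ _ _ _⟩
    | inv a _ ha =>
      obtain ⟨c, hc, d, e, ρ, rfl⟩ := ha
      exact ⟨_, Subgroup.inv_mem _ hc, _, _, _, aff_inv _ _ _ _⟩
  intro x hx
  obtain ⟨d, a, ρ, hxe⟩ := exists_form (⟨x, hPAG hx⟩ : AG p I R)
  have hx' : x = aff (piAG ⟨x, hPAG hx⟩) d a ρ := hxe
  have hσ : piAG ⟨x, hPAG hx⟩ ∈ barr P := ⟨⟨x, hPAG hx⟩, hx, rfl⟩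
  obtain ⟨c, hc, d', a', ρ', hce⟩ := key _ (ih _ hσ)
  refine ⟨c, hc, ?_⟩
  have hcP := hclP hc
  have hw : c⁻¹ * x ∈ P := P.mul_mem (P.inv_mem hcP) hx
  obtain ⟨k, hk⟩ := hP ⟨_, hw⟩
  have hk' : (c⁻¹ * x) ^ p ^ k = 1 := congrArg Subtype.val hk
  have hwf : ∃ d₁ a₁ ρ₁, c⁻¹ * x = aff 1 d₁ a₁ ρ₁ := by
    have e : c⁻¹ * x = (aff (piAG ⟨x, hPAG hx⟩) d' a' ρ')⁻¹ * aff (piAG ⟨x, hPAG hx⟩) d a ρ := by
      rw [← hce, ← hx']
    rw [e, aff_inv, aff_mul, inv_mul_cancel]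
    exact ⟨_, _, _, rfl⟩
  obtain ⟨d₁, a₁, ρ₁, hw1⟩ := hwf
  rw [hw1] at hk'
  refine ⟨a₁, ?_⟩
  rw [← pel hR hk', ← hw1]
  group

end lifts

section omega

variable {p : ℕ} [hp : Fact p.Prime]

/-- Sylow `p`-subgroups of symmetric groups are generated by elements of order `p`. -/
theorem omega_aux (n : ℕ) : ∀ (X : Type) [Fintype X] [DecidableEq X], Fintype.card X = n → ∀ P : Subgroup (Perm X),
    IsSyl p P → ∀ x ∈ P, x ∈ Subgroup.closure {z : Perm X | z ∈ P ∧ z ^ p = 1} := by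
  induction n using Nat.strong_induction_on with
  | _ n ih =>
    intro X _ _ hX P hP x hx
    by_cases hnp : n < p
    · have h1 : x = 1 := by
        obtain ⟨k, hk⟩ := hP.pgroup ⟨x, hx⟩
        apply pelt_small (k := k) (congrArg Subtype.val hk)
        calc x.support.card ≤ Fintype.card X := Finset.card_le_univ _
          _ < p := hX ▸ hnp
      rw [h1]
      exact Subgroup.one_mem _
    · push_neg at hnp
      have hp2 := hp.out.two_le
      let I := Fin (n / p)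
      let R := Fin (n % p)
      have hIc : Fintype.card I = n / p := Fintype.card_fin _
      have hRc : Fintype.card R = n % p := Fintype.card_fin _
      have hR : Fintype.card R < p := by
        rw [hRc]
        exact Nat.mod_lt _ hp.out.pos
      have hXY : Fintype.card X = Fintype.card (Yy p I R) := by
        rw [card_Yy, hIc, hRc, hX, Nat.div_add_mod]
      obtain ⟨e, he⟩ := exists_std hP hXY (tv_pgroup (p := p) (I := I) (R := R))
      have hP' := hP.map e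
      have hstep := step hR hP'.pgroup he (fun σ hσ => ih (n / p) (Nat.div_lt_self (by omega) hp2) I hIc _
        (isSyl_barr hR hP' he) σ hσ)
      obtain ⟨c, hc, f, hxe⟩ := hstep _ ⟨x, hx, rfl⟩
      -- transfer
      let C : Subgroup (Perm X) := Subgroup.closure {z : Perm X | z ∈ P ∧ z ^ p = 1}
      have hle : Subgroup.closure {z : Perm (Yy p I R) | z ∈ P.map (e.permCongrHom.toMonoidHom) ∧ z ^ p = 1 ∧ sign z = 1}
          ≤ C.map (e.permCongrHom.toMonoidHom) := by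
        rw [Subgroup.closure_le]
        rintro z ⟨⟨w, hw, rfl⟩, hz, -⟩
        refine ⟨w, Subgroup.subset_closure ⟨hw, ?_⟩, rfl⟩
        apply e.permCongrHom.injective
        have : e.permCongrHom (w ^ p) = 1 := by
          rw [map_pow]
          exact hz
        rw [this, map_one]
      have htv : (tv f : Perm (Yy p I R)) ∈ C.map (e.permCongrHom.toMonoidHom) := by
        have h1 : tv f ∈ P.map (e.permCongrHom.toMonoidHom) := he ⟨f, rfl⟩
        obtain ⟨w, hw, hwe⟩ := h1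
        refine ⟨w, Subgroup.subset_closure ⟨hw, ?_⟩, hwe⟩
        apply e.permCongrHom.injective
        have h2 : e.permCongrHom w = tv f := hwe
        rw [map_pow, h2, trans_pow_p, map_one]
      have hxC : e.permCongrHom.toMonoidHom x ∈ C.map (e.permCongrHom.toMonoidHom) := by
        rw [hxe]
        exact Subgroup.mul_mem _ (hle hc) htv
      obtain ⟨w, hw, hwe⟩ := hxC
      have := e.permCongrHom.injective hwe
      rw [← this]
      exact hw

theorem omega {X : Type} [Fintype X] [DecidableEq X] {P : Subgroup (Perm X)} (hP : IsSyl p P) {x : Perm X} (hx : x ∈ P) :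
    x ∈ Subgroup.closure {z : Perm X | z ∈ P ∧ z ^ p = 1} := omega_aux _ X rfl P hP x hx

variable {I : Type} {R : Type} [Fintype I] [DecidableEq I] [Fintype R] [DecidableEq R]

/-- Even elements of `P` are products of even elements of order dividing `p`. -/
theorem omega_even (hR : Fintype.card R < p) {P : Subgroup (Perm (Yy p I R))} (hP : IsSyl p P) (hB : B0 p I R ≤ P)
    {x : Perm (Yy p I R)} (hx : x ∈ P) (hs : sign x = 1) :
    x ∈ Subgroup.closure {z : Perm (Yy p I R) | z ∈ P ∧ z ^ p = 1 ∧ sign z = 1} := by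
  obtain ⟨c, hc, f, rfl⟩ := step hR hP.pgroup hB (fun σ hσ => omega (isSyl_barr hR hP hB) hσ) x hx
  have hcs : ∀ c ∈ Subgroup.closure {z : Perm (Yy p I R) | z ∈ P ∧ z ^ p = 1 ∧ sign z = 1}, sign c = 1 := by
    intro c hc
    induction hc using Subgroup.closure_induction with
    | mem c hc => exact hc.2.2
    | one => simp
    | mul a b _ _ ha hb => rw [map_mul, ha, hb, one_mul]
    | inv a _ ha => rw [map_inv, ha, inv_one]
  have h1 : sign (tv f : Perm (Yy p I R)) = 1 := by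
    rw [map_mul, hcs c hc, one_mul] at hs
    exact hs
  exact Subgroup.mul_mem _ hc (Subgroup.subset_closure ⟨hB ⟨f, rfl⟩, trans_pow_p f, h1⟩)

end omega

end Cfsg.Agent.Lib.AltFusion.Syl
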